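import Cfsg.Agent.Lib.H35.TCMHeE.Chk
set_option autoImplicit false
set_option maxRecDepth 100000
set_option linter.all false
namespace H35.TCMHeE
open H35.TC
section
variable {G : Type} [Group G] {g : Lt → G} {H : Subgroup G}
/-- hypotheses -/
abbrev Hy (g : Lt → G) (H : Subgroup G) : Prop := (∀ x, g (inv x) = (g x)⁻¹) ∧ (∀ r ∈ rels, (r.map g).prod = 1) ∧ ∀ r ∈ subs, (r.map g).prod ∈ H
theorem hM0 : 0 < M := by decide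
theorem hat {r W : List Lt} {x : Lt} (hr : (r.map g).prod = 1) (k : ℕ) (h : r.drop k ++ r.take k = W ++ [x]) (z : G ⧸ H) : fa g x (act (fa g) W z) = z := hole_at hr k h z
theorem pat (hy : Hy g H) {r W1 W2 : List Lt} (hr : (r.map g).prod = 1) (k : ℕ) (h : r.drop k ++ r.take k = W1 ++ (W2.map inv).reverse) (z : G ⧸ H) : act (fa g) W1 z = act (fa g) W2 z := pair_at hy.1 hr k h z
theorem ivt (hy : Hy g H) (x x' : Lt) (hx : inv x = x') (z : G ⧸ H) : fa g x (fa g x' z) = z := inv_rel hy.1 x x' hx z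
theorem rf_0 (hy : Hy g H) : (([.b, .b] : List Lt).map g).prod = 1 := hy.2.1 _ (by decide +kernel)
theorem rb_0 (hy : Hy g H) : (([.b, .b] : List Lt).map g).prod = 1 := inv_at hy.1 (rf_0 hy)
theorem rf_1 (hy : Hy g H) : (([.a, .a, .a, .b, .a, .a, .a, .b, .a, .a, .a, .b] : List Lt).map g).prod = 1 := hy.2.1 _ (by decide +kernel)
theorem rb_1 (hy : Hy g H) : (([.b, .ai, .ai, .ai, .b, .ai, .ai, .ai, .b, .ai, .ai, .ai] : List Lt).map g).prod = 1 := inv_at hy.1 (rf_1 hy)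
theorem rf_2 (hy : Hy g H) : (([.ci, .b, .c, .b, .c, .a, .a, .b, .ai, .b, .ai, .b, .a, .b] : List Lt).map g).prod = 1 := hy.2.1 _ (by decide +kernel)
theorem rb_2 (hy : Hy g H) : (([.b, .ai, .b, .a, .b, .a, .b, .ai, .ai, .ci, .b, .ci, .b, .c] : List Lt).map g).prod = 1 := inv_at hy.1 (rf_2 hy)
theorem rf_3 (hy : Hy g H) : (([.c, .ai, .ai, .b, .c, .b, .a, .a, .ci, .a, .a, .b, .a, .b, .a] : List Lt).map g).prod = 1 := hy.2.1 _ (by decide +kernel)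
theorem rb_3 (hy : Hy g H) : (([.ai, .b, .ai, .b, .ai, .ai, .c, .ai, .ai, .b, .ci, .b, .a, .a, .ci] : List Lt).map g).prod = 1 := inv_at hy.1 (rf_3 hy)
theorem rf_4 (hy : Hy g H) : (([.ci, .b, .ci, .b, .c, .a, .b, .a, .a, .a, .a, .b, .a, .b, .ai] : List Lt).map g).prod = 1 := hy.2.1 _ (by decide +kernel)
theorem rb_4 (hy : Hy g H) : (([.a, .b, .ai, .b, .ai, .ai, .ai, .ai, .b, .ai, .ci, .b, .c, .b, .c] : List Lt).map g).prod = 1 := inv_at hy.1 (rf_4 hy)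
theorem rf_5 (hy : Hy g H) : (([.ci, .ci, .b, .c, .c, .b, .ai, .b, .a, .a, .b, .a, .b, .ai, .b] : List Lt).map g).prod = 1 := hy.2.1 _ (by decide +kernel)
theorem rb_5 (hy : Hy g H) : (([.b, .a, .b, .ai, .b, .ai, .ai, .b, .a, .b, .ci, .ci, .b, .c, .c] : List Lt).map g).prod = 1 := inv_at hy.1 (rf_5 hy)
theorem rf_6 (hy : Hy g H) : (([.a, .a, .b, .ai, .ai, .b, .a, .b, .a, .a, .b, .ai, .ai, .b, .a, .b] : List Lt).map g).prod = 1 := hy.2.1 _ (by decide +kernel)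
theorem rb_6 (hy : Hy g H) : (([.b, .ai, .b, .a, .a, .b, .ai, .ai, .b, .ai, .b, .a, .a, .b, .ai, .ai] : List Lt).map g).prod = 1 := inv_at hy.1 (rf_6 hy)
theorem rf_7 (hy : Hy g H) : (([.ci, .b, .c, .b, .c, .b, .a, .a, .b, .ai, .b, .ai, .b, .a, .a, .b, .ai, .b] : List Lt).map g).prod = 1 := hy.2.1 _ (by decide +kernel)
theorem rb_7 (hy : Hy g H) : (([.b, .a, .b, .ai, .ai, .b, .a, .b, .a, .b, .ai, .ai, .b, .ci, .b, .ci, .b, .c] : List Lt).map g).prod = 1 := inv_at hy.1 (rf_7 hy)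
theorem rf_8 (hy : Hy g H) : (([.a, .ai] : List Lt).map g).prod = 1 := hy.2.1 _ (by decide +kernel)
theorem rb_8 (hy : Hy g H) : (([.a, .ai] : List Lt).map g).prod = 1 := inv_at hy.1 (rf_8 hy)
theorem rf_9 (hy : Hy g H) : (([.ai, .a] : List Lt).map g).prod = 1 := hy.2.1 _ (by decide +kernel)
theorem rb_9 (hy : Hy g H) : (([.ai, .a] : List Lt).map g).prod = 1 := inv_at hy.1 (rf_9 hy)
theorem rf_10 (hy : Hy g H) : (([.c, .ci] : List Lt).map g).prod = 1 := hy.2.1 _ (by decide +kernel)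
theorem rb_10 (hy : Hy g H) : (([.c, .ci] : List Lt).map g).prod = 1 := inv_at hy.1 (rf_10 hy)
theorem rf_11 (hy : Hy g H) : (([.ci, .c] : List Lt).map g).prod = 1 := hy.2.1 _ (by decide +kernel)
theorem rb_11 (hy : Hy g H) : (([.ci, .c] : List Lt).map g).prod = 1 := inv_at hy.1 (rf_11 hy)
/-- the points of the nodes -/
noncomputable def cP (g : Lt → G) (H : Subgroup G) : ℕ → G ⧸ H := cc (fa g) lt P ((1 : G) : G ⧸ H)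
/-- soundness of an entry -/
abbrev Gd (g : Lt → G) (H : Subgroup G) (x : Lt) (u : ℕ) : Prop := Good (fa g) T MG M (cP g H) x u
/-- soundness of a merge -/
abbrev GdM (g : Lt → G) (H : Subgroup G) (u : ℕ) : Prop := GoodM (fa g) T MG M (cP g H) u
theorem dp_a_0_s (hy : Hy g H)
    (j u : ℕ) (hu : u < M) (h : dp_a_0 j u = true) : Gd g H Lt.a u := by
  unfold dp_a_0 at h
  rcases brec_true h with h | h
  · exact lS_good (T := T) (x := Lt.a) hM0 hu [Lt.ai] (hat (rf_8 hy) 1 rfl) h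
  · exact lF1_good (T := T) (x := Lt.a) hM0 .ai (hat (rf_8 hy) 1 rfl) h
theorem dp_a_1_s (hy : Hy g H)
    (j u : ℕ) (hu : u < M) (h : dp_a_1 j u = true) : Gd g H Lt.a u := by
  unfold dp_a_1 at h
  rcases brec_true h with h | h
  · exact lS_good (T := T) (x := Lt.a) hM0 hu [Lt.a, Lt.a, Lt.b, Lt.a, Lt.a, Lt.a, Lt.b, Lt.a, Lt.a, Lt.a, Lt.b] (hat (rf_1 hy) 1 rfl) h
  · exact lS_good (T := T) (x := Lt.a) hM0 hu [Lt.ci, Lt.ai, Lt.b, Lt.ai, Lt.b, Lt.ai, Lt.ai, Lt.c, Lt.ai, Lt.ai, Lt.b, Lt.ci, Lt.b, Lt.a] (hat (rb_3 hy) 14 rfl) h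
theorem dp_a_2_s (hy : Hy g H)
    (j u : ℕ) (hu : u < M) (h : dp_a_2 j u = true) : Gd g H Lt.a u := by
  unfold dp_a_2 at h
  rcases brec_true h with h | h
  · exact lS_good (T := T) (x := Lt.a) hM0 hu [Lt.a, Lt.b, Lt.a, Lt.a, Lt.a, Lt.b, Lt.a, Lt.a, Lt.a, Lt.b, Lt.a] (hat (rf_1 hy) 2 rfl) h
  · exact lS_good (T := T) (x := Lt.a) hM0 hu [Lt.b, Lt.a, Lt.a, Lt.a, Lt.b, Lt.a, Lt.a, Lt.a, Lt.b, Lt.a, Lt.a] (hat (rf_1 hy) 3 rfl) h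
theorem dp_a_3_s (hy : Hy g H)
    (j u : ℕ) (hu : u < M) (h : dp_a_3 j u = true) : Gd g H Lt.a u := by
  unfold dp_a_3 at h
  rcases brec_true h with h | h
  · exact dp_a_1_s hy j u hu h
  · exact dp_a_2_s hy j u hu h
theorem dp_a_4_s (hy : Hy g H)
    (j u : ℕ) (hu : u < M) (h : dp_a_4 j u = true) : Gd g H Lt.a u := by
  unfold dp_a_4 at h
  rcases brec_true h with h | h
  · exact lS_good (T := T) (x := Lt.a) hM0 hu [Lt.b, Lt.ai, Lt.b, Lt.ai, Lt.b, Lt.a, Lt.b, Lt.ci, Lt.b, Lt.c, Lt.b, Lt.c, Lt.a] (hat (rf_2 hy) 7 rfl) h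
  · exact lS_good (T := T) (x := Lt.a) hM0 hu [Lt.a, Lt.b, Lt.ai, Lt.b, Lt.ai, Lt.b, Lt.a, Lt.b, Lt.ci, Lt.b, Lt.c, Lt.b, Lt.c] (hat (rf_2 hy) 6 rfl) h
theorem dp_a_5_s (hy : Hy g H)
    (j u : ℕ) (hu : u < M) (h : dp_a_5 j u = true) : Gd g H Lt.a u := by
  unfold dp_a_5 at h
  rcases brec_true h with h | h
  · exact lS_good (T := T) (x := Lt.a) hM0 hu [Lt.a, Lt.ci, Lt.a, Lt.a, Lt.b, Lt.a, Lt.b, Lt.a, Lt.c, Lt.ai, Lt.ai, Lt.b, Lt.c, Lt.b] (hat (rf_3 hy) 7 rfl) h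
  · exact lS_good (T := T) (x := Lt.a) hM0 hu [Lt.b, Lt.ai, Lt.ai, Lt.ci, Lt.b, Lt.ci, Lt.b, Lt.c, Lt.b, Lt.ai, Lt.b, Lt.a, Lt.b] (hat (rb_2 hy) 6 rfl) h
theorem dp_a_6_s (hy : Hy g H)
    (j u : ℕ) (hu : u < M) (h : dp_a_6 j u = true) : Gd g H Lt.a u := by
  unfold dp_a_6 at h
  rcases brec_true h with h | h
  · exact dp_a_4_s hy j u hu h
  · exact dp_a_5_s hy j u hu h
theorem dp_a_7_s (hy : Hy g H)
    (j u : ℕ) (hu : u < M) (h : dp_a_7 j u = true) : Gd g H Lt.a u := by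
  unfold dp_a_7 at h
  rcases brec_true h with h | h
  · exact lH_good (T := T) (x := Lt.a) hM0 [] [] (by rw [show cP g H 0 = _ from cc_zero]; exact sub_rel hy.1 (hy.2.2 _ (by decide))) h
  · exact lF_good (T := T) (x := Lt.a) hM0 [Lt.b, Lt.a, Lt.b, Lt.ai, Lt.b, Lt.ci, Lt.ci, Lt.b, Lt.c, Lt.c, Lt.b, Lt.ai, Lt.b, Lt.a] (hat (rf_5 hy) 10 rfl) h
theorem dp_a_8_s (hy : Hy g H)
    (j u : ℕ) (hu : u < M) (h : dp_a_8 j u = true) : Gd g H Lt.a u := by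
  unfold dp_a_8 at h
  rcases brec_true h with h | h
  · exact lS_good (T := T) (x := Lt.a) hM0 hu [Lt.b, Lt.a, Lt.b, Lt.ai, Lt.ci, Lt.b, Lt.ci, Lt.b, Lt.c, Lt.a, Lt.b, Lt.a, Lt.a, Lt.a] (hat (rf_4 hy) 11 rfl) h
  · exact lS_good (T := T) (x := Lt.a) hM0 hu [Lt.ci, Lt.a, Lt.a, Lt.b, Lt.a, Lt.b, Lt.a, Lt.c, Lt.ai, Lt.ai, Lt.b, Lt.c, Lt.b, Lt.a] (hat (rf_3 hy) 8 rfl) h
theorem dp_a_9_s (hy : Hy g H)
    (j u : ℕ) (hu : u < M) (h : dp_a_9 j u = true) : Gd g H Lt.a u := by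
  unfold dp_a_9 at h
  rcases brec_true h with h | h
  · exact lS_good (T := T) (x := Lt.a) hM0 hu [Lt.b, Lt.ci, Lt.ci, Lt.b, Lt.c, Lt.c, Lt.b, Lt.a, Lt.b, Lt.ai, Lt.b, Lt.ai, Lt.ai, Lt.b] (hat (rb_5 hy) 9 rfl) h
  · exact dp_a_8_s hy j u hu h
theorem dp_a_10_s (hy : Hy g H)
    (j u : ℕ) (hu : u < M) (h : dp_a_10 j u = true) : Gd g H Lt.a u := by
  unfold dp_a_10 at h
  rcases brec_true h with h | h
  · exact dp_a_7_s hy j u hu h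
  · exact dp_a_9_s hy j u hu h
theorem dp_a_11_s (hy : Hy g H)
    (j u : ℕ) (hu : u < M) (h : dp_a_11 j u = true) : Gd g H Lt.a u := by
  unfold dp_a_11 at h
  rcases brec_true h with h | h
  · exact lS_good (T := T) (x := Lt.a) hM0 hu [Lt.b, Lt.a, Lt.b, Lt.ai, Lt.ai, Lt.ci, Lt.b, Lt.ci, Lt.b, Lt.c, Lt.b, Lt.ai, Lt.b] (hat (rb_2 hy) 4 rfl) h
  · exact lS_good (T := T) (x := Lt.a) hM0 hu [Lt.b, Lt.a, Lt.c, Lt.ai, Lt.ai, Lt.b, Lt.c, Lt.b, Lt.a, Lt.a, Lt.ci, Lt.a, Lt.a, Lt.b] (hat (rf_3 hy) 13 rfl) h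
theorem dp_a_12_s (hy : Hy g H)
    (j u : ℕ) (hu : u < M) (h : dp_a_12 j u = true) : Gd g H Lt.a u := by
  unfold dp_a_12 at h
  rcases brec_true h with h | h
  · exact lS_good (T := T) (x := Lt.a) hM0 hu [Lt.b, Lt.ci, Lt.b, Lt.c, Lt.b, Lt.c, Lt.a, Lt.a, Lt.b, Lt.ai, Lt.b, Lt.ai, Lt.b] (hat (rf_2 hy) 13 rfl) h
  · exact dp_a_11_s hy j u hu h
theorem dp_a_13_s (hy : Hy g H)
    (j u : ℕ) (hu : u < M) (h : dp_a_13 j u = true) : Gd g H Lt.a u := by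
  unfold dp_a_13 at h
  rcases brec_true h with h | h
  · exact lF_good (T := T) (x := Lt.a) hM0 [Lt.b, Lt.ai, Lt.b, Lt.ai, Lt.b, Lt.a, Lt.b, Lt.ci, Lt.b, Lt.c, Lt.b, Lt.c, Lt.a] (hat (rf_2 hy) 7 rfl) h
  · exact lF_good (T := T) (x := Lt.a) hM0 [Lt.a, Lt.b, Lt.a, Lt.b, Lt.ai, Lt.ci, Lt.b, Lt.ci, Lt.b, Lt.c, Lt.a, Lt.b, Lt.a, Lt.a] (hat (rf_4 hy) 10 rfl) h
theorem dp_a_14_s (hy : Hy g H)
    (j u : ℕ) (hu : u < M) (h : dp_a_14 j u = true) : Gd g H Lt.a u := by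
  unfold dp_a_14 at h
  rcases brec_true h with h | h
  · exact lF_good (T := T) (x := Lt.a) hM0 [Lt.c, Lt.ai, Lt.ai, Lt.b, Lt.c, Lt.b, Lt.a, Lt.a, Lt.ci, Lt.a, Lt.a, Lt.b, Lt.a, Lt.b] (hat (rf_3 hy) 0 rfl) h
  · exact dp_a_13_s hy j u hu h
theorem dp_a_15_s (hy : Hy g H)
    (j u : ℕ) (hu : u < M) (h : dp_a_15 j u = true) : Gd g H Lt.a u := by
  unfold dp_a_15 at h
  rcases brec_true h with h | h
  · exact dp_a_12_s hy j u hu h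
  · exact dp_a_14_s hy j u hu h
theorem dp_a_16_s (hy : Hy g H)
    (j u : ℕ) (hu : u < M) (h : dp_a_16 j u = true) : Gd g H Lt.a u := by
  unfold dp_a_16 at h
  rcases brec_true h with h | h
  · exact dp_a_10_s hy j u hu h
  · exact dp_a_15_s hy j u hu h
theorem dp_a_17_s (hy : Hy g H)
    (j u : ℕ) (hu : u < M) (h : dp_a_17 j u = true) : Gd g H Lt.a u := by
  unfold dp_a_17 at h
  rcases brec_true h with h | h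
  · exact dp_a_6_s hy j u hu h
  · exact dp_a_16_s hy j u hu h
theorem dp_a_18_s (hy : Hy g H)
    (j u : ℕ) (hu : u < M) (h : dp_a_18 j u = true) : Gd g H Lt.a u := by
  unfold dp_a_18 at h
  rcases brec_true h with h | h
  · exact dp_a_3_s hy j u hu h
  · exact dp_a_17_s hy j u hu h
theorem dp_a_19_s (hy : Hy g H)
    (j u : ℕ) (hu : u < M) (h : dp_a_19 j u = true) : Gd g H Lt.a u := by
  unfold dp_a_19 at h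
  rcases brec_true h with h | h
  · exact dp_a_0_s hy j u hu h
  · exact dp_a_18_s hy j u hu h
theorem snd_a (hy : Hy g H)
    (j u : ℕ) (hu : u < M) (h : disp_a j u = true) : Gd g H Lt.a u := by
  unfold disp_a at h
  rcases brec_true h with h | h
  · exact lPar_good (T := T) (x := Lt.a) (x' := Lt.ai) (by decide) rfl (ivt hy _ _ rfl) h
  · rcases brec_true h with h | h
    · exact lDef_good (T := T) (x := Lt.a) (by decide) rfl h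
    · exact dp_a_19_s hy j u hu h
theorem snc_a (hy : Hy g H)
    (j u : ℕ) (hu : u < M) (h : chk_a j u = true) : (T Lt.a u < A ∧ Gd g H Lt.a u) ∨ (A ≤ T Lt.a u ∧ MG u < A) := by
  unfold chk_a at h
  cases hb : Nat.ble A (T_a u) with
  | true => rw [hb] at h; exact Or.inr ⟨le_of_ble hb, le_of_ble h⟩
  | false => rw [hb] at h; exact Or.inl ⟨lt_of_ble_false hb, snd_a hy j u hu h⟩
theorem dp_ai_0_s (hy : Hy g H)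
    (j u : ℕ) (hu : u < M) (h : dp_ai_0 j u = true) : Gd g H Lt.ai u := by
  unfold dp_ai_0 at h
  rcases brec_true h with h | h
  · exact lS_good (T := T) (x := Lt.ai) hM0 hu [Lt.ai, Lt.ai, Lt.b, Lt.ai, Lt.ai, Lt.ai, Lt.b, Lt.ai, Lt.ai, Lt.ai, Lt.b] (hat (rb_1 hy) 2 rfl) h
  · exact lS_good (T := T) (x := Lt.ai) hM0 hu [Lt.ai, Lt.b, Lt.ci, Lt.b, Lt.a, Lt.a, Lt.ci, Lt.ai, Lt.b, Lt.ai, Lt.b, Lt.ai, Lt.ai, Lt.c] (hat (rb_3 hy) 8 rfl) h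
theorem dp_ai_1_s (hy : Hy g H)
    (j u : ℕ) (hu : u < M) (h : dp_ai_1 j u = true) : Gd g H Lt.ai u := by
  unfold dp_ai_1 at h
  rcases brec_true h with h | h
  · exact lS_good (T := T) (x := Lt.ai) hM0 hu [Lt.b, Lt.c, Lt.b, Lt.a, Lt.a, Lt.ci, Lt.a, Lt.a, Lt.b, Lt.a, Lt.b, Lt.a, Lt.c, Lt.ai] (hat (rf_3 hy) 3 rfl) h
  · exact dp_ai_0_s hy j u hu h
theorem dp_ai_2_s (hy : Hy g H)
    (j u : ℕ) (hu : u < M) (h : dp_ai_2 j u = true) : Gd g H Lt.ai u := by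
  unfold dp_ai_2 at h
  rcases brec_true h with h | h
  · exact lS_good (T := T) (x := Lt.ai) hM0 hu [Lt.ai, Lt.b, Lt.c, Lt.b, Lt.a, Lt.a, Lt.ci, Lt.a, Lt.a, Lt.b, Lt.a, Lt.b, Lt.a, Lt.c] (hat (rf_3 hy) 2 rfl) h
  · exact dp_ai_1_s hy j u hu h
theorem dp_ai_3_s (hy : Hy g H)
    (j u : ℕ) (hu : u < M) (h : dp_ai_3 j u = true) : Gd g H Lt.ai u := by
  unfold dp_ai_3 at h
  rcases brec_true h with h | h
  · exact lS_good (T := T) (x := Lt.ai) hM0 hu [Lt.b, Lt.a, Lt.b, Lt.ci, Lt.b, Lt.c, Lt.b, Lt.c, Lt.a, Lt.a, Lt.b, Lt.ai, Lt.b] (hat (rf_2 hy) 11 rfl) h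
  · exact lF_good (T := T) (x := Lt.ai) hM0 [Lt.ai, Lt.b, Lt.ai, Lt.ci, Lt.b, Lt.c, Lt.b, Lt.c, Lt.a, Lt.b, Lt.ai, Lt.b, Lt.ai, Lt.ai] (hat (rb_4 hy) 7 rfl) h
theorem dp_ai_4_s (hy : Hy g H)
    (j u : ℕ) (hu : u < M) (h : dp_ai_4 j u = true) : Gd g H Lt.ai u := by
  unfold dp_ai_4 at h
  rcases brec_true h with h | h
  · exact lS_good (T := T) (x := Lt.ai) hM0 hu [Lt.b, Lt.a, Lt.b, Lt.a, Lt.b, Lt.ai, Lt.ai, Lt.ci, Lt.b, Lt.ci, Lt.b, Lt.c, Lt.b] (hat (rb_2 hy) 2 rfl) h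
  · exact lF_good (T := T) (x := Lt.ai) hM0 [Lt.b, Lt.ai, Lt.ai, Lt.ai, Lt.b, Lt.ai, Lt.ai, Lt.ai, Lt.b, Lt.ai, Lt.ai] (hat (rb_1 hy) 0 rfl) h
theorem dp_ai_5_s (hy : Hy g H)
    (j u : ℕ) (hu : u < M) (h : dp_ai_5 j u = true) : Gd g H Lt.ai u := by
  unfold dp_ai_5 at h
  rcases brec_true h with h | h
  · exact lF_good (T := T) (x := Lt.ai) hM0 [Lt.ai, Lt.c, Lt.ai, Lt.ai, Lt.b, Lt.ci, Lt.b, Lt.a, Lt.a, Lt.ci, Lt.ai, Lt.b, Lt.ai, Lt.b] (hat (rb_3 hy) 5 rfl) h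
  · exact dp_ai_4_s hy j u hu h
theorem dp_ai_6_s (hy : Hy g H)
    (j u : ℕ) (hu : u < M) (h : dp_ai_6 j u = true) : Gd g H Lt.ai u := by
  unfold dp_ai_6 at h
  rcases brec_true h with h | h
  · exact dp_ai_3_s hy j u hu h
  · exact dp_ai_5_s hy j u hu h
theorem dp_ai_7_s (hy : Hy g H)
    (j u : ℕ) (hu : u < M) (h : dp_ai_7 j u = true) : Gd g H Lt.ai u := by
  unfold dp_ai_7 at h
  rcases brec_true h with h | h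
  · exact lS_good (T := T) (x := Lt.ai) hM0 hu [Lt.b, Lt.ai, Lt.b, Lt.ai, Lt.ai, Lt.c, Lt.ai, Lt.ai, Lt.b, Lt.ci, Lt.b, Lt.a, Lt.a, Lt.ci] (hat (rb_3 hy) 1 rfl) h
  · exact lS_good (T := T) (x := Lt.ai) hM0 hu [Lt.ai, Lt.b, Lt.ai, Lt.ai, Lt.ai, Lt.b, Lt.ai, Lt.ai, Lt.ai, Lt.b, Lt.ai] (hat (rb_1 hy) 3 rfl) h
theorem dp_ai_8_s (hy : Hy g H)
    (j u : ℕ) (hu : u < M) (h : dp_ai_8 j u = true) : Gd g H Lt.ai u := by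
  unfold dp_ai_8 at h
  rcases brec_true h with h | h
  · exact lS_good (T := T) (x := Lt.ai) hM0 hu [Lt.b, Lt.ai, Lt.b, Lt.a, Lt.b, Lt.ci, Lt.b, Lt.c, Lt.b, Lt.c, Lt.a, Lt.a, Lt.b] (hat (rf_2 hy) 9 rfl) h
  · exact dp_ai_7_s hy j u hu h
theorem dp_ai_9_s (hy : Hy g H)
    (j u : ℕ) (hu : u < M) (h : dp_ai_9 j u = true) : Gd g H Lt.ai u := by
  unfold dp_ai_9 at h
  rcases brec_true h with h | h
  · exact lF_good (T := T) (x := Lt.ai) hM0 [Lt.b, Lt.ai, Lt.b, Lt.a, Lt.b, Lt.ci, Lt.b, Lt.c, Lt.b, Lt.c, Lt.a, Lt.a, Lt.b] (hat (rf_2 hy) 9 rfl) h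
  · exact lS_good (T := T) (x := Lt.ai) hM0 hu [Lt.ci, Lt.b, Lt.ci, Lt.b, Lt.c, Lt.b, Lt.ai, Lt.b, Lt.a, Lt.b, Lt.a, Lt.b, Lt.ai] (hat (rb_2 hy) 9 rfl) h
theorem dp_ai_10_s (hy : Hy g H)
    (j u : ℕ) (hu : u < M) (h : dp_ai_10 j u = true) : Gd g H Lt.ai u := by
  unfold dp_ai_10 at h
  rcases brec_true h with h | h
  · exact lS_good (T := T) (x := Lt.ai) hM0 hu [Lt.b, Lt.a, Lt.a, Lt.b, Lt.a, Lt.b, Lt.ai, Lt.b, Lt.ci, Lt.ci, Lt.b, Lt.c, Lt.c, Lt.b] (hat (rf_5 hy) 7 rfl) h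
  · exact lS_good (T := T) (x := Lt.ai) hM0 hu [Lt.b, Lt.ai, Lt.ai, Lt.ai, Lt.b, Lt.ai, Lt.ai, Lt.ai, Lt.b, Lt.ai, Lt.ai] (hat (rb_1 hy) 0 rfl) h
theorem dp_ai_11_s (hy : Hy g H)
    (j u : ℕ) (hu : u < M) (h : dp_ai_11 j u = true) : Gd g H Lt.ai u := by
  unfold dp_ai_11 at h
  rcases brec_true h with h | h
  · exact dp_ai_9_s hy j u hu h
  · exact dp_ai_10_s hy j u hu h
theorem dp_ai_12_s (hy : Hy g H)
    (j u : ℕ) (hu : u < M) (h : dp_ai_12 j u = true) : Gd g H Lt.ai u := by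
  unfold dp_ai_12 at h
  rcases brec_true h with h | h
  · exact dp_ai_8_s hy j u hu h
  · exact dp_ai_11_s hy j u hu h
theorem dp_ai_13_s (hy : Hy g H)
    (j u : ℕ) (hu : u < M) (h : dp_ai_13 j u = true) : Gd g H Lt.ai u := by
  unfold dp_ai_13 at h
  rcases brec_true h with h | h
  · exact dp_ai_6_s hy j u hu h
  · exact dp_ai_12_s hy j u hu h
theorem dp_ai_14_s (hy : Hy g H)
    (j u : ℕ) (hu : u < M) (h : dp_ai_14 j u = true) : Gd g H Lt.ai u := by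
  unfold dp_ai_14 at h
  rcases brec_true h with h | h
  · exact dp_ai_2_s hy j u hu h
  · exact dp_ai_13_s hy j u hu h
theorem dp_ai_15_s (hy : Hy g H)
    (j u : ℕ) (hu : u < M) (h : dp_ai_15 j u = true) : Gd g H Lt.ai u := by
  unfold dp_ai_15 at h
  rcases brec_true h with h | h
  · exact lS_good (T := T) (x := Lt.ai) hM0 hu [Lt.a] (hat (rf_8 hy) 0 rfl) h
  · exact dp_ai_14_s hy j u hu h
theorem dp_ai_16_s (hy : Hy g H)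
    (j u : ℕ) (hu : u < M) (h : dp_ai_16 j u = true) : Gd g H Lt.ai u := by
  unfold dp_ai_16 at h
  rcases brec_true h with h | h
  · exact lF1_good (T := T) (x := Lt.ai) hM0 .a (hat (rf_8 hy) 0 rfl) h
  · exact dp_ai_15_s hy j u hu h
theorem snd_ai (hy : Hy g H)
    (j u : ℕ) (hu : u < M) (h : disp_ai j u = true) : Gd g H Lt.ai u := by
  unfold disp_ai at h
  rcases brec_true h with h | h
  · exact lDef_good (T := T) (x := Lt.ai) (by decide) rfl h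
  · rcases brec_true h with h | h
    · exact lPar_good (T := T) (x := Lt.ai) (x' := Lt.a) (by decide) rfl (ivt hy _ _ rfl) h
    · exact dp_ai_16_s hy j u hu h
theorem snc_ai (hy : Hy g H)
    (j u : ℕ) (hu : u < M) (h : chk_ai j u = true) : (T Lt.ai u < A ∧ Gd g H Lt.ai u) ∨ (A ≤ T Lt.ai u ∧ MG u < A) := by
  unfold chk_ai at h
  cases hb : Nat.ble A (T_ai u) with
  | true => rw [hb] at h; exact Or.inr ⟨le_of_ble hb, le_of_ble h⟩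
  | false => rw [hb] at h; exact Or.inl ⟨lt_of_ble_false hb, snd_ai hy j u hu h⟩
theorem dp_b_0_s (hy : Hy g H)
    (j u : ℕ) (hu : u < M) (h : dp_b_0 j u = true) : Gd g H Lt.b u := by
  unfold dp_b_0 at h
  rcases brec_true h with h | h
  · exact lF1_good (T := T) (x := Lt.b) hM0 .b (hat (rf_0 hy) 0 rfl) h
  · exact lS_good (T := T) (x := Lt.b) hM0 hu [Lt.b] (hat (rf_0 hy) 0 rfl) h
theorem dp_b_1_s (hy : Hy g H)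
    (j u : ℕ) (hu : u < M) (h : dp_b_1 j u = true) : Gd g H Lt.b u := by
  unfold dp_b_1 at h
  rcases brec_true h with h | h
  · exact lS_good (T := T) (x := Lt.b) hM0 hu [Lt.c, Lt.b, Lt.c, Lt.a, Lt.a, Lt.b, Lt.ai, Lt.b, Lt.ai, Lt.b, Lt.a, Lt.b, Lt.ci] (hat (rf_2 hy) 2 rfl) h
  · exact lS_good (T := T) (x := Lt.b) hM0 hu [Lt.ci, Lt.b, Lt.c, Lt.b, Lt.ai, Lt.b, Lt.a, Lt.b, Lt.a, Lt.b, Lt.ai, Lt.ai, Lt.ci] (hat (rb_2 hy) 11 rfl) h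
theorem dp_b_2_s (hy : Hy g H)
    (j u : ℕ) (hu : u < M) (h : dp_b_2 j u = true) : Gd g H Lt.b u := by
  unfold dp_b_2 at h
  rcases brec_true h with h | h
  · exact lS_good (T := T) (x := Lt.b) hM0 hu [Lt.c, Lt.c, Lt.b, Lt.ai, Lt.b, Lt.a, Lt.a, Lt.b, Lt.a, Lt.b, Lt.ai, Lt.b, Lt.ci, Lt.ci] (hat (rf_5 hy) 3 rfl) h
  · exact lS_good (T := T) (x := Lt.b) hM0 hu [Lt.a, Lt.a, Lt.a, Lt.b, Lt.a, Lt.a, Lt.a, Lt.b, Lt.a, Lt.a, Lt.a] (hat (rf_1 hy) 0 rfl) h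
theorem dp_b_3_s (hy : Hy g H)
    (j u : ℕ) (hu : u < M) (h : dp_b_3 j u = true) : Gd g H Lt.b u := by
  unfold dp_b_3 at h
  rcases brec_true h with h | h
  · exact lS_good (T := T) (x := Lt.b) hM0 hu [Lt.ai, Lt.ai, Lt.ai, Lt.b, Lt.ai, Lt.ai, Lt.ai, Lt.b, Lt.ai, Lt.ai, Lt.ai] (hat (rb_1 hy) 1 rfl) h
  · exact dp_b_2_s hy j u hu h
theorem dp_b_4_s (hy : Hy g H)
    (j u : ℕ) (hu : u < M) (h : dp_b_4 j u = true) : Gd g H Lt.b u := by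
  unfold dp_b_4 at h
  rcases brec_true h with h | h
  · exact dp_b_1_s hy j u hu h
  · exact dp_b_3_s hy j u hu h
theorem dp_b_5_s (hy : Hy g H)
    (j u : ℕ) (hu : u < M) (h : dp_b_5 j u = true) : Gd g H Lt.b u := by
  unfold dp_b_5 at h
  rcases brec_true h with h | h
  · exact lS_good (T := T) (x := Lt.b) hM0 hu [Lt.a, Lt.c, Lt.ai, Lt.ai, Lt.b, Lt.c, Lt.b, Lt.a, Lt.a, Lt.ci, Lt.a, Lt.a, Lt.b, Lt.a] (hat (rf_3 hy) 14 rfl) h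
  · exact lS_good (T := T) (x := Lt.b) hM0 hu [Lt.c, Lt.b, Lt.ai, Lt.b, Lt.a, Lt.b, Lt.a, Lt.b, Lt.ai, Lt.ai, Lt.ci, Lt.b, Lt.ci] (hat (rb_2 hy) 13 rfl) h
theorem dp_b_6_s (hy : Hy g H)
    (j u : ℕ) (hu : u < M) (h : dp_b_6 j u = true) : Gd g H Lt.b u := by
  unfold dp_b_6 at h
  rcases brec_true h with h | h
  · exact lS_good (T := T) (x := Lt.b) hM0 hu [Lt.ai, Lt.b, Lt.ai, Lt.ai, Lt.c, Lt.ai, Lt.ai, Lt.b, Lt.ci, Lt.b, Lt.a, Lt.a, Lt.ci, Lt.ai] (hat (rb_3 hy) 2 rfl) h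
  · exact dp_b_5_s hy j u hu h
theorem dp_b_7_s (hy : Hy g H)
    (j u : ℕ) (hu : u < M) (h : dp_b_7 j u = true) : Gd g H Lt.b u := by
  unfold dp_b_7 at h
  rcases brec_true h with h | h
  · exact lF_good (T := T) (x := Lt.b) hM0 [Lt.ai, Lt.b, Lt.a, Lt.b, Lt.ci, Lt.b, Lt.c, Lt.b, Lt.c, Lt.a, Lt.a, Lt.b, Lt.ai] (hat (rf_2 hy) 10 rfl) h
  · exact lF_good (T := T) (x := Lt.b) hM0 [Lt.c, Lt.a, Lt.a, Lt.b, Lt.ai, Lt.b, Lt.ai, Lt.b, Lt.a, Lt.b, Lt.ci, Lt.b, Lt.c] (hat (rf_2 hy) 4 rfl) h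
theorem dp_b_8_s (hy : Hy g H)
    (j u : ℕ) (hu : u < M) (h : dp_b_8 j u = true) : Gd g H Lt.b u := by
  unfold dp_b_8 at h
  rcases brec_true h with h | h
  · exact lF_good (T := T) (x := Lt.b) hM0 [Lt.ai, Lt.ci, Lt.b, Lt.c, Lt.b, Lt.c, Lt.a, Lt.b, Lt.ai, Lt.b, Lt.ai, Lt.ai, Lt.ai, Lt.ai] (hat (rb_4 hy) 9 rfl) h
  · exact lS_good (T := T) (x := Lt.b) hM0 hu [Lt.a, Lt.b, Lt.ai, Lt.ai, Lt.ci, Lt.b, Lt.ci, Lt.b, Lt.c, Lt.b, Lt.ai, Lt.b, Lt.a] (hat (rb_2 hy) 5 rfl) h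
theorem dp_b_9_s (hy : Hy g H)
    (j u : ℕ) (hu : u < M) (h : dp_b_9 j u = true) : Gd g H Lt.b u := by
  unfold dp_b_9 at h
  rcases brec_true h with h | h
  · exact dp_b_7_s hy j u hu h
  · exact dp_b_8_s hy j u hu h
theorem dp_b_10_s (hy : Hy g H)
    (j u : ℕ) (hu : u < M) (h : dp_b_10 j u = true) : Gd g H Lt.b u := by
  unfold dp_b_10 at h
  rcases brec_true h with h | h
  · exact dp_b_6_s hy j u hu h
  · exact dp_b_9_s hy j u hu h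
theorem dp_b_11_s (hy : Hy g H)
    (j u : ℕ) (hu : u < M) (h : dp_b_11 j u = true) : Gd g H Lt.b u := by
  unfold dp_b_11 at h
  rcases brec_true h with h | h
  · exact lH_good (T := T) (x := Lt.b) hM0 [] [] (by rw [show cP g H 0 = _ from cc_zero]; exact sub_rel hy.1 (hy.2.2 _ (by decide))) h
  · exact lF_good (T := T) (x := Lt.b) hM0 [Lt.c, Lt.c, Lt.b, Lt.ai, Lt.b, Lt.a, Lt.a, Lt.b, Lt.a, Lt.b, Lt.ai, Lt.b, Lt.ci, Lt.ci] (hat (rf_5 hy) 3 rfl) h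
theorem dp_b_12_s (hy : Hy g H)
    (j u : ℕ) (hu : u < M) (h : dp_b_12 j u = true) : Gd g H Lt.b u := by
  unfold dp_b_12 at h
  rcases brec_true h with h | h
  · exact lS_good (T := T) (x := Lt.b) hM0 hu [Lt.c, Lt.a, Lt.a, Lt.b, Lt.ai, Lt.b, Lt.ai, Lt.b, Lt.a, Lt.b, Lt.ci, Lt.b, Lt.c] (hat (rf_2 hy) 4 rfl) h
  · exact dp_b_11_s hy j u hu h
theorem dp_b_13_s (hy : Hy g H)
    (j u : ℕ) (hu : u < M) (h : dp_b_13 j u = true) : Gd g H Lt.b u := by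
  unfold dp_b_13 at h
  rcases brec_true h with h | h
  · exact lF_good (T := T) (x := Lt.b) hM0 [Lt.ai, Lt.ai, Lt.b, Lt.a, Lt.b, Lt.ci, Lt.ci, Lt.b, Lt.c, Lt.c, Lt.b, Lt.a, Lt.b, Lt.ai] (hat (rb_5 hy) 5 rfl) h
  · exact lF_good (T := T) (x := Lt.b) hM0 [Lt.a, Lt.b, Lt.ai, Lt.ai, Lt.ci, Lt.b, Lt.ci, Lt.b, Lt.c, Lt.b, Lt.ai, Lt.b, Lt.a] (hat (rb_2 hy) 5 rfl) h
theorem dp_b_14_s (hy : Hy g H)
    (j u : ℕ) (hu : u < M) (h : dp_b_14 j u = true) : Gd g H Lt.b u := by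
  unfold dp_b_14 at h
  rcases brec_true h with h | h
  · exact lF_good (T := T) (x := Lt.b) hM0 [Lt.c, Lt.b, Lt.ai, Lt.b, Lt.a, Lt.b, Lt.a, Lt.b, Lt.ai, Lt.ai, Lt.ci, Lt.b, Lt.ci] (hat (rb_2 hy) 13 rfl) h
  · exact lS_good (T := T) (x := Lt.b) hM0 hu [Lt.a, Lt.b, Lt.a, Lt.b, Lt.ai, Lt.ai, Lt.ci, Lt.b, Lt.ci, Lt.b, Lt.c, Lt.b, Lt.ai] (hat (rb_2 hy) 3 rfl) h
theorem dp_b_15_s (hy : Hy g H)
    (j u : ℕ) (hu : u < M) (h : dp_b_15 j u = true) : Gd g H Lt.b u := by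
  unfold dp_b_15 at h
  rcases brec_true h with h | h
  · exact dp_b_13_s hy j u hu h
  · exact dp_b_14_s hy j u hu h
theorem dp_b_16_s (hy : Hy g H)
    (j u : ℕ) (hu : u < M) (h : dp_b_16 j u = true) : Gd g H Lt.b u := by
  unfold dp_b_16 at h
  rcases brec_true h with h | h
  · exact dp_b_12_s hy j u hu h
  · exact dp_b_15_s hy j u hu h
theorem dp_b_17_s (hy : Hy g H)
    (j u : ℕ) (hu : u < M) (h : dp_b_17 j u = true) : Gd g H Lt.b u := by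
  unfold dp_b_17 at h
  rcases brec_true h with h | h
  · exact lF_good (T := T) (x := Lt.b) hM0 [Lt.ai, Lt.b, Lt.a, Lt.a, Lt.b, Lt.a, Lt.b, Lt.ai, Lt.b, Lt.ci, Lt.ci, Lt.b, Lt.c, Lt.c] (hat (rf_5 hy) 6 rfl) h
  · exact lF_good (T := T) (x := Lt.b) hM0 [Lt.ai, Lt.ai, Lt.ai, Lt.b, Lt.ai, Lt.ai, Lt.ai, Lt.b, Lt.ai, Lt.ai, Lt.ai] (hat (rb_1 hy) 1 rfl) h
theorem dp_b_18_s (hy : Hy g H)
    (j u : ℕ) (hu : u < M) (h : dp_b_18 j u = true) : Gd g H Lt.b u := by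
  unfold dp_b_18 at h
  rcases brec_true h with h | h
  · exact lS_good (T := T) (x := Lt.b) hM0 hu [Lt.ai, Lt.ai, Lt.b, Lt.a, Lt.b, Lt.a, Lt.b, Lt.ai, Lt.ai, Lt.b, Lt.ci, Lt.b, Lt.ci, Lt.b, Lt.c, Lt.b, Lt.a] (hat (rb_7 hy) 3 rfl) h
  · exact lS_good (T := T) (x := Lt.b) hM0 hu [Lt.ai, Lt.b, Lt.a, Lt.b, Lt.ci, Lt.b, Lt.c, Lt.b, Lt.c, Lt.a, Lt.a, Lt.b, Lt.ai] (hat (rf_2 hy) 10 rfl) h
theorem dp_b_19_s (hy : Hy g H)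
    (j u : ℕ) (hu : u < M) (h : dp_b_19 j u = true) : Gd g H Lt.b u := by
  unfold dp_b_19 at h
  rcases brec_true h with h | h
  · exact dp_b_17_s hy j u hu h
  · exact dp_b_18_s hy j u hu h
theorem dp_b_20_s (hy : Hy g H)
    (j u : ℕ) (hu : u < M) (h : dp_b_20 j u = true) : Gd g H Lt.b u := by
  unfold dp_b_20 at h
  rcases brec_true h with h | h
  · exact lS_good (T := T) (x := Lt.b) hM0 hu [Lt.ai, Lt.ai, Lt.ci, Lt.b, Lt.ci, Lt.b, Lt.c, Lt.b, Lt.ai, Lt.b, Lt.a, Lt.b, Lt.a] (hat (rb_2 hy) 7 rfl) h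
  · exact lF_good (T := T) (x := Lt.b) hM0 [Lt.a, Lt.b, Lt.ci, Lt.b, Lt.c, Lt.b, Lt.c, Lt.a, Lt.a, Lt.b, Lt.ai, Lt.b, Lt.ai] (hat (rf_2 hy) 12 rfl) h
theorem dp_b_21_s (hy : Hy g H)
    (j u : ℕ) (hu : u < M) (h : dp_b_21 j u = true) : Gd g H Lt.b u := by
  unfold dp_b_21 at h
  rcases brec_true h with h | h
  · exact lS_good (T := T) (x := Lt.b) hM0 hu [Lt.c, Lt.c, Lt.b, Lt.a, Lt.b, Lt.ai, Lt.b, Lt.ai, Lt.ai, Lt.b, Lt.a, Lt.b, Lt.ci, Lt.ci] (hat (rb_5 hy) 13 rfl) h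
  · exact lF_good (T := T) (x := Lt.b) hM0 [Lt.a, Lt.c, Lt.ai, Lt.ai, Lt.b, Lt.c, Lt.b, Lt.a, Lt.a, Lt.ci, Lt.a, Lt.a, Lt.b, Lt.a] (hat (rf_3 hy) 14 rfl) h
theorem dp_b_22_s (hy : Hy g H)
    (j u : ℕ) (hu : u < M) (h : dp_b_22 j u = true) : Gd g H Lt.b u := by
  unfold dp_b_22 at h
  rcases brec_true h with h | h
  · exact dp_b_20_s hy j u hu h
  · exact dp_b_21_s hy j u hu h
theorem dp_b_23_s (hy : Hy g H)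
    (j u : ℕ) (hu : u < M) (h : dp_b_23 j u = true) : Gd g H Lt.b u := by
  unfold dp_b_23 at h
  rcases brec_true h with h | h
  · exact dp_b_19_s hy j u hu h
  · exact dp_b_22_s hy j u hu h
theorem dp_b_24_s (hy : Hy g H)
    (j u : ℕ) (hu : u < M) (h : dp_b_24 j u = true) : Gd g H Lt.b u := by
  unfold dp_b_24 at h
  rcases brec_true h with h | h
  · exact dp_b_16_s hy j u hu h
  · exact dp_b_23_s hy j u hu h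
theorem dp_b_25_s (hy : Hy g H)
    (j u : ℕ) (hu : u < M) (h : dp_b_25 j u = true) : Gd g H Lt.b u := by
  unfold dp_b_25 at h
  rcases brec_true h with h | h
  · exact dp_b_10_s hy j u hu h
  · exact dp_b_24_s hy j u hu h
theorem dp_b_26_s (hy : Hy g H)
    (j u : ℕ) (hu : u < M) (h : dp_b_26 j u = true) : Gd g H Lt.b u := by
  unfold dp_b_26 at h
  rcases brec_true h with h | h
  · exact dp_b_4_s hy j u hu h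
  · exact dp_b_25_s hy j u hu h
theorem dp_b_27_s (hy : Hy g H)
    (j u : ℕ) (hu : u < M) (h : dp_b_27 j u = true) : Gd g H Lt.b u := by
  unfold dp_b_27 at h
  rcases brec_true h with h | h
  · exact dp_b_0_s hy j u hu h
  · exact dp_b_26_s hy j u hu h
theorem snd_b (hy : Hy g H)
    (j u : ℕ) (hu : u < M) (h : disp_b j u = true) : Gd g H Lt.b u := by
  unfold disp_b at h
  rcases brec_true h with h | h
  · exact lDef_good (T := T) (x := Lt.b) (by decide) rfl h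
  · rcases brec_true h with h | h
    · exact lPar_good (T := T) (x := Lt.b) (x' := Lt.b) (by decide) rfl (ivt hy _ _ rfl) h
    · exact dp_b_27_s hy j u hu h
theorem snc_b (hy : Hy g H)
    (j u : ℕ) (hu : u < M) (h : chk_b j u = true) : (T Lt.b u < A ∧ Gd g H Lt.b u) ∨ (A ≤ T Lt.b u ∧ MG u < A) := by
  unfold chk_b at h
  cases hb : Nat.ble A (T_b u) with
  | true => rw [hb] at h; exact Or.inr ⟨le_of_ble hb, le_of_ble h⟩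
  | false => rw [hb] at h; exact Or.inl ⟨lt_of_ble_false hb, snd_b hy j u hu h⟩
theorem dp_c_0_s (hy : Hy g H)
    (j u : ℕ) (hu : u < M) (h : dp_c_0 j u = true) : Gd g H Lt.c u := by
  unfold dp_c_0 at h
  rcases brec_true h with h | h
  · exact lF1_good (T := T) (x := Lt.c) hM0 .ci (hat (rf_10 hy) 1 rfl) h
  · exact lS_good (T := T) (x := Lt.c) hM0 hu [Lt.a, Lt.a, Lt.b, Lt.ai, Lt.b, Lt.ai, Lt.b, Lt.a, Lt.b, Lt.ci, Lt.b, Lt.c, Lt.b] (hat (rf_2 hy) 5 rfl) h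
theorem dp_c_1_s (hy : Hy g H)
    (j u : ℕ) (hu : u < M) (h : dp_c_1 j u = true) : Gd g H Lt.c u := by
  unfold dp_c_1 at h
  rcases brec_true h with h | h
  · exact lS_good (T := T) (x := Lt.c) hM0 hu [Lt.b, Lt.c, Lt.a, Lt.a, Lt.b, Lt.ai, Lt.b, Lt.ai, Lt.b, Lt.a, Lt.b, Lt.ci, Lt.b] (hat (rf_2 hy) 3 rfl) h
  · exact lS_good (T := T) (x := Lt.c) hM0 hu [Lt.b, Lt.ai, Lt.b, Lt.a, Lt.b, Lt.a, Lt.b, Lt.ai, Lt.ai, Lt.ci, Lt.b, Lt.ci, Lt.b] (hat (rb_2 hy) 0 rfl) h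
theorem dp_c_2_s (hy : Hy g H)
    (j u : ℕ) (hu : u < M) (h : dp_c_2 j u = true) : Gd g H Lt.c u := by
  unfold dp_c_2 at h
  rcases brec_true h with h | h
  · exact lS_good (T := T) (x := Lt.c) hM0 hu [Lt.b, Lt.a, Lt.b, Lt.ai, Lt.ai, Lt.b, Lt.a, Lt.b, Lt.a, Lt.b, Lt.ai, Lt.ai, Lt.b, Lt.ci, Lt.b, Lt.ci, Lt.b] (hat (rb_7 hy) 0 rfl) h
  · exact lS_good (T := T) (x := Lt.c) hM0 hu [Lt.ai, Lt.ai, Lt.b, Lt.ci, Lt.b, Lt.a, Lt.a, Lt.ci, Lt.ai, Lt.b, Lt.ai, Lt.b, Lt.ai, Lt.ai] (hat (rb_3 hy) 7 rfl) h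
theorem dp_c_3_s (hy : Hy g H)
    (j u : ℕ) (hu : u < M) (h : dp_c_3 j u = true) : Gd g H Lt.c u := by
  unfold dp_c_3 at h
  rcases brec_true h with h | h
  · exact lF_good (T := T) (x := Lt.c) hM0 [Lt.b, Lt.c, Lt.a, Lt.a, Lt.b, Lt.ai, Lt.b, Lt.ai, Lt.b, Lt.a, Lt.b, Lt.ci, Lt.b] (hat (rf_2 hy) 3 rfl) h
  · exact dp_c_2_s hy j u hu h
theorem dp_c_4_s (hy : Hy g H)
    (j u : ℕ) (hu : u < M) (h : dp_c_4 j u = true) : Gd g H Lt.c u := by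
  unfold dp_c_4 at h
  rcases brec_true h with h | h
  · exact lS_good (T := T) (x := Lt.c) hM0 hu [Lt.ai, Lt.ai, Lt.b, Lt.c, Lt.b, Lt.a, Lt.a, Lt.ci, Lt.a, Lt.a, Lt.b, Lt.a, Lt.b, Lt.a] (hat (rf_3 hy) 1 rfl) h
  · exact lS_good (T := T) (x := Lt.c) hM0 hu [Lt.b, Lt.a, Lt.a, Lt.ci, Lt.a, Lt.a, Lt.b, Lt.a, Lt.b, Lt.a, Lt.c, Lt.ai, Lt.ai, Lt.b] (hat (rf_3 hy) 5 rfl) h
theorem dp_c_5_s (hy : Hy g H)
    (j u : ℕ) (hu : u < M) (h : dp_c_5 j u = true) : Gd g H Lt.c u := by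
  unfold dp_c_5 at h
  rcases brec_true h with h | h
  · exact lS_good (T := T) (x := Lt.c) hM0 hu [Lt.c, Lt.b, Lt.ai, Lt.b, Lt.a, Lt.a, Lt.b, Lt.a, Lt.b, Lt.ai, Lt.b, Lt.ci, Lt.ci, Lt.b] (hat (rf_5 hy) 4 rfl) h
  · exact lS_good (T := T) (x := Lt.c) hM0 hu [Lt.b, Lt.ai, Lt.b, Lt.a, Lt.a, Lt.b, Lt.a, Lt.b, Lt.ai, Lt.b, Lt.ci, Lt.ci, Lt.b, Lt.c] (hat (rf_5 hy) 5 rfl) h
theorem dp_c_6_s (hy : Hy g H)
    (j u : ℕ) (hu : u < M) (h : dp_c_6 j u = true) : Gd g H Lt.c u := by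
  unfold dp_c_6 at h
  rcases brec_true h with h | h
  · exact dp_c_4_s hy j u hu h
  · exact dp_c_5_s hy j u hu h
theorem dp_c_7_s (hy : Hy g H)
    (j u : ℕ) (hu : u < M) (h : dp_c_7 j u = true) : Gd g H Lt.c u := by
  unfold dp_c_7 at h
  rcases brec_true h with h | h
  · exact dp_c_3_s hy j u hu h
  · exact dp_c_6_s hy j u hu h
theorem dp_c_8_s (hy : Hy g H)
    (j u : ℕ) (hu : u < M) (h : dp_c_8 j u = true) : Gd g H Lt.c u := by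
  unfold dp_c_8 at h
  rcases brec_true h with h | h
  · exact dp_c_1_s hy j u hu h
  · exact dp_c_7_s hy j u hu h
theorem dp_c_9_s (hy : Hy g H)
    (j u : ℕ) (hu : u < M) (h : dp_c_9 j u = true) : Gd g H Lt.c u := by
  unfold dp_c_9 at h
  rcases brec_true h with h | h
  · exact dp_c_0_s hy j u hu h
  · exact dp_c_8_s hy j u hu h
theorem dp_c_10_s (hy : Hy g H)
    (j u : ℕ) (hu : u < M) (h : dp_c_10 j u = true) : Gd g H Lt.c u := by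
  unfold dp_c_10 at h
  rcases brec_true h with h | h
  · exact lS_good (T := T) (x := Lt.c) hM0 hu [Lt.ci] (hat (rf_10 hy) 1 rfl) h
  · exact dp_c_9_s hy j u hu h
theorem snd_c (hy : Hy g H)
    (j u : ℕ) (hu : u < M) (h : disp_c j u = true) : Gd g H Lt.c u := by
  unfold disp_c at h
  rcases brec_true h with h | h
  · exact lPar_good (T := T) (x := Lt.c) (x' := Lt.ci) (by decide) rfl (ivt hy _ _ rfl) h
  · rcases brec_true h with h | h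
    · exact lDef_good (T := T) (x := Lt.c) (by decide) rfl h
    · exact dp_c_10_s hy j u hu h
theorem snc_c (hy : Hy g H)
    (j u : ℕ) (hu : u < M) (h : chk_c j u = true) : (T Lt.c u < A ∧ Gd g H Lt.c u) ∨ (A ≤ T Lt.c u ∧ MG u < A) := by
  unfold chk_c at h
  cases hb : Nat.ble A (T_c u) with
  | true => rw [hb] at h; exact Or.inr ⟨le_of_ble hb, le_of_ble h⟩
  | false => rw [hb] at h; exact Or.inl ⟨lt_of_ble_false hb, snd_c hy j u hu h⟩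
theorem dp_ci_0_s (hy : Hy g H)
    (j u : ℕ) (hu : u < M) (h : dp_ci_0 j u = true) : Gd g H Lt.ci u := by
  unfold dp_ci_0 at h
  rcases brec_true h with h | h
  · exact lS_good (T := T) (x := Lt.ci) hM0 hu [Lt.b, Lt.c, Lt.b, Lt.ai, Lt.b, Lt.a, Lt.b, Lt.a, Lt.b, Lt.ai, Lt.ai, Lt.ci, Lt.b] (hat (rb_2 hy) 12 rfl) h
  · exact lS_good (T := T) (x := Lt.ci) hM0 hu [Lt.b, Lt.ci, Lt.b, Lt.c, Lt.b, Lt.ai, Lt.b, Lt.a, Lt.b, Lt.a, Lt.b, Lt.ai, Lt.ai] (hat (rb_2 hy) 10 rfl) h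
theorem dp_ci_1_s (hy : Hy g H)
    (j u : ℕ) (hu : u < M) (h : dp_ci_1 j u = true) : Gd g H Lt.ci u := by
  unfold dp_ci_1 at h
  rcases brec_true h with h | h
  · exact lS_good (T := T) (x := Lt.ci) hM0 hu [Lt.b, Lt.c, Lt.c, Lt.b, Lt.ai, Lt.b, Lt.a, Lt.a, Lt.b, Lt.a, Lt.b, Lt.ai, Lt.b, Lt.ci] (hat (rf_5 hy) 2 rfl) h
  · exact lF_good (T := T) (x := Lt.ci) hM0 [Lt.b, Lt.c, Lt.b, Lt.c, Lt.b, Lt.a, Lt.a, Lt.b, Lt.ai, Lt.b, Lt.ai, Lt.b, Lt.a, Lt.a, Lt.b, Lt.ai, Lt.b] (hat (rf_7 hy) 1 rfl) h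
theorem dp_ci_2_s (hy : Hy g H)
    (j u : ℕ) (hu : u < M) (h : dp_ci_2 j u = true) : Gd g H Lt.ci u := by
  unfold dp_ci_2 at h
  rcases brec_true h with h | h
  · exact lS_good (T := T) (x := Lt.ci) hM0 hu [Lt.ci, Lt.b, Lt.c, Lt.c, Lt.b, Lt.ai, Lt.b, Lt.a, Lt.a, Lt.b, Lt.a, Lt.b, Lt.ai, Lt.b] (hat (rf_5 hy) 1 rfl) h
  · exact lS_good (T := T) (x := Lt.ci) hM0 hu [Lt.b, Lt.c, Lt.a, Lt.b, Lt.a, Lt.a, Lt.a, Lt.a, Lt.b, Lt.a, Lt.b, Lt.ai, Lt.ci, Lt.b] (hat (rf_4 hy) 3 rfl) h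
theorem dp_ci_3_s (hy : Hy g H)
    (j u : ℕ) (hu : u < M) (h : dp_ci_3 j u = true) : Gd g H Lt.ci u := by
  unfold dp_ci_3 at h
  rcases brec_true h with h | h
  · exact lS_good (T := T) (x := Lt.ci) hM0 hu [Lt.b, Lt.c, Lt.b, Lt.c, Lt.a, Lt.a, Lt.b, Lt.ai, Lt.b, Lt.ai, Lt.b, Lt.a, Lt.b] (hat (rf_2 hy) 1 rfl) h
  · exact lF_good (T := T) (x := Lt.ci) hM0 [Lt.b, Lt.ci, Lt.b, Lt.c, Lt.b, Lt.ai, Lt.b, Lt.a, Lt.b, Lt.a, Lt.b, Lt.ai, Lt.ai] (hat (rb_2 hy) 10 rfl) h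
theorem dp_ci_4_s (hy : Hy g H)
    (j u : ℕ) (hu : u < M) (h : dp_ci_4 j u = true) : Gd g H Lt.ci u := by
  unfold dp_ci_4 at h
  rcases brec_true h with h | h
  · exact dp_ci_2_s hy j u hu h
  · exact dp_ci_3_s hy j u hu h
theorem dp_ci_5_s (hy : Hy g H)
    (j u : ℕ) (hu : u < M) (h : dp_ci_5 j u = true) : Gd g H Lt.ci u := by
  unfold dp_ci_5 at h
  rcases brec_true h with h | h
  · exact dp_ci_1_s hy j u hu h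
  · exact dp_ci_4_s hy j u hu h
theorem dp_ci_6_s (hy : Hy g H)
    (j u : ℕ) (hu : u < M) (h : dp_ci_6 j u = true) : Gd g H Lt.ci u := by
  unfold dp_ci_6 at h
  rcases brec_true h with h | h
  · exact dp_ci_0_s hy j u hu h
  · exact dp_ci_5_s hy j u hu h
theorem dp_ci_7_s (hy : Hy g H)
    (j u : ℕ) (hu : u < M) (h : dp_ci_7 j u = true) : Gd g H Lt.ci u := by
  unfold dp_ci_7 at h
  rcases brec_true h with h | h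
  · exact lF1_good (T := T) (x := Lt.ci) hM0 .c (hat (rf_10 hy) 0 rfl) h
  · exact dp_ci_6_s hy j u hu h
theorem dp_ci_8_s (hy : Hy g H)
    (j u : ℕ) (hu : u < M) (h : dp_ci_8 j u = true) : Gd g H Lt.ci u := by
  unfold dp_ci_8 at h
  rcases brec_true h with h | h
  · exact lS_good (T := T) (x := Lt.ci) hM0 hu [Lt.c] (hat (rf_10 hy) 0 rfl) h
  · exact dp_ci_7_s hy j u hu h
theorem snd_ci (hy : Hy g H)
    (j u : ℕ) (hu : u < M) (h : disp_ci j u = true) : Gd g H Lt.ci u := by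
  unfold disp_ci at h
  rcases brec_true h with h | h
  · exact lDef_good (T := T) (x := Lt.ci) (by decide) rfl h
  · rcases brec_true h with h | h
    · exact lPar_good (T := T) (x := Lt.ci) (x' := Lt.c) (by decide) rfl (ivt hy _ _ rfl) h
    · exact dp_ci_8_s hy j u hu h
theorem snc_ci (hy : Hy g H)
    (j u : ℕ) (hu : u < M) (h : chk_ci j u = true) : (T Lt.ci u < A ∧ Gd g H Lt.ci u) ∨ (A ≤ T Lt.ci u ∧ MG u < A) := by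
  unfold chk_ci at h
  cases hb : Nat.ble A (T_ci u) with
  | true => rw [hb] at h; exact Or.inr ⟨le_of_ble hb, le_of_ble h⟩
  | false => rw [hb] at h; exact Or.inl ⟨lt_of_ble_false hb, snd_ci hy j u hu h⟩
theorem dM_0_s (hy : Hy g H) (j z1 z2 u : ℕ) (h : dM_0 j z1 z2 u = true) : GdM g H u := by
  unfold dM_0 at h
  rcases brec_true h with h | h
  · exact mCo_good (T := T) (y := .b) hM0 h
  · rcases brec_true h with h | h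
    · exact mCo_good (T := T) (y := .a) hM0 h
    · exact mCo_good (T := T) (y := .ai) hM0 h
theorem dM_1_s (hy : Hy g H) (j z1 z2 u : ℕ) (h : dM_1 j z1 z2 u = true) : GdM g H u := by
  unfold dM_1 at h
  rcases brec_true h with h | h
  · exact mCo_good (T := T) (y := .c) hM0 h
  · exact mCo_good (T := T) (y := .ci) hM0 h
theorem dM_2_s (hy : Hy g H) (j z1 z2 u : ℕ) (h : dM_2 j z1 z2 u = true) : GdM g H u := by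
  unfold dM_2 at h
  rcases brec_true h with h | h
  · rcases brec_true h with h | h
    · rcases brec_true h with h | h
      · exact mRel_good (T := T) hM0 [Lt.a, Lt.b, Lt.a, Lt.a, Lt.a, Lt.b, Lt.a, Lt.a] [Lt.ai, Lt.ai, Lt.b, Lt.ai] (pat hy (rf_1 hy) 2 rfl) h
      · exact mRel_good (T := T) hM0 [Lt.b, Lt.a, Lt.b, Lt.a, Lt.b, Lt.ai, Lt.ai, Lt.ci] [Lt.a, Lt.b, Lt.ci, Lt.b, Lt.c, Lt.b] (pat hy (rb_2 hy) 2 rfl) h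
    · rcases brec_true h with h | h
      · exact mRel_good (T := T) hM0 [Lt.a, Lt.a, Lt.a, Lt.b, Lt.a, Lt.a, Lt.a] [Lt.b, Lt.ai, Lt.ai, Lt.ai, Lt.b] (pat hy (rf_1 hy) 0 rfl) h
      · exact mRel_good (T := T) hM0 [Lt.b, Lt.ai, Lt.b, Lt.a, Lt.b, Lt.a, Lt.b, Lt.ai, Lt.ai, Lt.ci] [Lt.ci, Lt.b, Lt.c, Lt.b] (pat hy (rb_2 hy) 0 rfl) h
  · rcases brec_true h with h | h
    · rcases brec_true h with h | h
      · exact mRel_good (T := T) hM0 [Lt.b, Lt.a, Lt.a, Lt.ci] [Lt.ci, Lt.b, Lt.a, Lt.a, Lt.ci, Lt.ai, Lt.b, Lt.ai, Lt.b, Lt.ai, Lt.ai] (pat hy (rf_3 hy) 5 rfl) h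
      · exact mRel_good (T := T) hM0 [Lt.ai, Lt.b, Lt.a, Lt.b, Lt.ci, Lt.b, Lt.c, Lt.b, Lt.c] [Lt.b, Lt.a, Lt.b, Lt.ai, Lt.ai] (pat hy (rf_2 hy) 10 rfl) h
    · rcases brec_true h with h | h
      · exact mRel_good (T := T) hM0 [Lt.b, Lt.a, Lt.a, Lt.ci, Lt.ai, Lt.b, Lt.ai, Lt.b, Lt.ai, Lt.ai, Lt.c, Lt.ai, Lt.ai, Lt.b] [Lt.c] (pat hy (rb_3 hy) 11 rfl) h
      · rcases brec_true h with h | h
        · exact mRel_good (T := T) hM0 [Lt.ci, Lt.b, Lt.ci, Lt.b, Lt.c, Lt.b, Lt.ai] [Lt.a, Lt.a, Lt.b, Lt.ai, Lt.b, Lt.ai, Lt.b] (pat hy (rb_2 hy) 9 rfl) h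
        · exact mRel_good (T := T) hM0 [Lt.b, Lt.ai, Lt.b, Lt.ai, Lt.b, Lt.a, Lt.b, Lt.ci, Lt.b, Lt.c, Lt.b] [Lt.ai, Lt.ai, Lt.ci] (pat hy (rf_2 hy) 7 rfl) h
theorem dM_3_s (hy : Hy g H) (j z1 z2 u : ℕ) (h : dM_3 j z1 z2 u = true) : GdM g H u := by
  unfold dM_3 at h
  rcases brec_true h with h | h
  · rcases brec_true h with h | h
    · exact mRel_good (T := T) hM0 [Lt.ai, Lt.c, Lt.ai] [Lt.a, Lt.b, Lt.a, Lt.b, Lt.a, Lt.c, Lt.ai, Lt.ai, Lt.b, Lt.c, Lt.b, Lt.a] (pat hy (rb_3 hy) 5 rfl) h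
    · rcases brec_true h with h | h
      · exact mRel_good (T := T) hM0 [Lt.c, Lt.a, Lt.a, Lt.b, Lt.ai, Lt.b, Lt.ai, Lt.b, Lt.a, Lt.b, Lt.ci, Lt.b] [Lt.b, Lt.ci] (pat hy (rf_2 hy) 4 rfl) h
      · exact mRel_good (T := T) hM0 [Lt.a, Lt.b, Lt.ai, Lt.b, Lt.ai, Lt.b, Lt.a, Lt.b] [Lt.ai, Lt.ci, Lt.b, Lt.ci, Lt.b, Lt.c] (pat hy (rf_2 hy) 6 rfl) h
  · rcases brec_true h with h | h
    · exact mRel_good (T := T) hM0 [Lt.b, Lt.a, Lt.b, Lt.a, Lt.b, Lt.ai, Lt.ai] [Lt.a, Lt.b, Lt.ci, Lt.b, Lt.c, Lt.b, Lt.c] (pat hy (rb_2 hy) 2 rfl) h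
    · rcases brec_true h with h | h
      · exact mRel_good (T := T) hM0 [Lt.ci, Lt.b, Lt.ci, Lt.b, Lt.c, Lt.b] [Lt.a, Lt.a, Lt.b, Lt.ai, Lt.b, Lt.ai, Lt.b, Lt.a] (pat hy (rb_2 hy) 9 rfl) h
      · exact mRel_good (T := T) hM0 [Lt.b, Lt.ai, Lt.b, Lt.a, Lt.b, Lt.a, Lt.b, Lt.ai, Lt.ai, Lt.ci, Lt.b] [Lt.ci, Lt.b, Lt.c] (pat hy (rb_2 hy) 0 rfl) h
theorem dM_4_s (hy : Hy g H) (j z1 z2 u : ℕ) (h : dM_4 j z1 z2 u = true) : GdM g H u := by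
  unfold dM_4 at h
  rcases brec_true h with h | h
  · rcases brec_true h with h | h
    · exact mRel_good (T := T) hM0 [Lt.c, Lt.b, Lt.ai, Lt.b, Lt.a, Lt.b, Lt.a, Lt.b, Lt.ai, Lt.ai, Lt.ci, Lt.b] [Lt.b, Lt.c] (pat hy (rb_2 hy) 13 rfl) h
    · rcases brec_true h with h | h
      · exact mRel_good (T := T) hM0 [Lt.b, Lt.a, Lt.b, Lt.ci, Lt.b, Lt.c, Lt.b, Lt.c] [Lt.a, Lt.b, Lt.a, Lt.b, Lt.ai, Lt.ai] (pat hy (rf_2 hy) 11 rfl) h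
      · exact mRel_good (T := T) hM0 [Lt.c, Lt.b, Lt.ai, Lt.b, Lt.a, Lt.b, Lt.a, Lt.b, Lt.ai, Lt.ai, Lt.ci] [Lt.b, Lt.c, Lt.b] (pat hy (rb_2 hy) 13 rfl) h
  · rcases brec_true h with h | h
    · rcases brec_true h with h | h
      · exact mRel_good (T := T) hM0 [Lt.b] [Lt.ci, Lt.b, Lt.c, Lt.b, Lt.ai, Lt.b, Lt.a, Lt.b, Lt.a, Lt.b, Lt.ai, Lt.ai, Lt.ci] (pat hy (rf_2 hy) 3 rfl) h
      · exact mRel_good (T := T) hM0 [Lt.a, Lt.b, Lt.ai, Lt.b, Lt.ai, Lt.b, Lt.a, Lt.b, Lt.ci, Lt.b, Lt.c, Lt.b, Lt.c, Lt.a] [] (pat hy (rf_2 hy) 6 rfl) h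
    · rcases brec_true h with h | h
      · exact mRel_good (T := T) hM0 [Lt.b, Lt.c, Lt.b, Lt.ai, Lt.b, Lt.a, Lt.b, Lt.a, Lt.b, Lt.ai, Lt.ai] [Lt.c, Lt.b, Lt.c] (pat hy (rb_2 hy) 12 rfl) h
      · exact mRel_good (T := T) hM0 [Lt.c, Lt.b] [Lt.b, Lt.c, Lt.b, Lt.ai, Lt.b, Lt.a, Lt.b, Lt.a, Lt.b, Lt.ai, Lt.ai, Lt.ci] (pat hy (rf_2 hy) 2 rfl) h
theorem dM_5_s (hy : Hy g H) (j z1 z2 u : ℕ) (h : dM_5 j z1 z2 u = true) : GdM g H u := by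
  unfold dM_5 at h
  rcases brec_true h with h | h
  · exact dM_3_s hy j z1 z2 u h
  · exact dM_4_s hy j z1 z2 u h
theorem dM_6_s (hy : Hy g H) (j z1 z2 u : ℕ) (h : dM_6 j z1 z2 u = true) : GdM g H u := by
  unfold dM_6 at h
  rcases brec_true h with h | h
  · exact dM_2_s hy j z1 z2 u h
  · exact dM_5_s hy j z1 z2 u h
theorem dM_7_s (hy : Hy g H) (j z1 z2 u : ℕ) (h : dM_7 j z1 z2 u = true) : GdM g H u := by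
  unfold dM_7 at h
  rcases brec_true h with h | h
  · rcases brec_true h with h | h
    · exact mRel_good (T := T) hM0 [Lt.b, Lt.c] [Lt.c, Lt.b, Lt.ai, Lt.b, Lt.a, Lt.b, Lt.a, Lt.b, Lt.ai, Lt.ai, Lt.ci, Lt.b] (pat hy (rf_2 hy) 1 rfl) h
    · rcases brec_true h with h | h
      · exact mRel_good (T := T) hM0 [Lt.b, Lt.ai, Lt.b, Lt.a, Lt.b, Lt.ci, Lt.b] [Lt.a, Lt.b, Lt.ai, Lt.ai, Lt.ci, Lt.b, Lt.ci] (pat hy (rf_2 hy) 9 rfl) h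
      · exact mRel_good (T := T) hM0 [Lt.b, Lt.a, Lt.a, Lt.ci, Lt.a, Lt.a, Lt.b, Lt.a, Lt.b, Lt.a, Lt.c, Lt.ai] [Lt.ci, Lt.b, Lt.a] (pat hy (rf_3 hy) 5 rfl) h
  · rcases brec_true h with h | h
    · rcases brec_true h with h | h
      · exact mRel_good (T := T) hM0 [Lt.ai, Lt.ai, Lt.b, Lt.ai, Lt.ai, Lt.ai, Lt.b, Lt.ai, Lt.ai, Lt.ai] [Lt.a, Lt.b] (pat hy (rb_1 hy) 2 rfl) h
      · rcases brec_true h with h | h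
        · exact mRel_good (T := T) hM0 [Lt.b, Lt.c, Lt.a, Lt.a, Lt.b, Lt.ai, Lt.b, Lt.ai, Lt.b, Lt.a, Lt.b, Lt.ci, Lt.b, Lt.c] [] (pat hy (rf_2 hy) 3 rfl) h
        · exact mRel_good (T := T) hM0 [Lt.b, Lt.a, Lt.b, Lt.ci, Lt.ci, Lt.b] [Lt.a, Lt.a, Lt.b, Lt.a, Lt.b, Lt.ai, Lt.b, Lt.ci, Lt.ci] (pat hy (rb_5 hy) 7 rfl) h
    · rcases brec_true h with h | h
      · exact mRel_good (T := T) hM0 [Lt.b, Lt.a, Lt.a, Lt.b, Lt.ai, Lt.b, Lt.ai, Lt.b, Lt.a, Lt.a, Lt.b, Lt.ai] [Lt.ci, Lt.b, Lt.ci, Lt.b, Lt.c, Lt.b] (pat hy (rf_7 hy) 5 rfl) h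
      · rcases brec_true h with h | h
        · exact mRel_good (T := T) hM0 [Lt.c, Lt.b, Lt.a, Lt.b, Lt.ai, Lt.b, Lt.ai, Lt.ai, Lt.b, Lt.a, Lt.b] [Lt.ci, Lt.b, Lt.c, Lt.c] (pat hy (rb_5 hy) 14 rfl) h
        · exact mRel_good (T := T) hM0 [Lt.a, Lt.a, Lt.ci, Lt.a, Lt.a, Lt.b, Lt.a, Lt.b, Lt.a, Lt.c, Lt.ai, Lt.ai] [Lt.b, Lt.ci, Lt.b] (pat hy (rf_3 hy) 6 rfl) h
theorem dM_8_s (hy : Hy g H) (j z1 z2 u : ℕ) (h : dM_8 j z1 z2 u = true) : GdM g H u := by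
  unfold dM_8 at h
  rcases brec_true h with h | h
  · rcases brec_true h with h | h
    · exact mRel_good (T := T) hM0 [Lt.b, Lt.c, Lt.b, Lt.c] [Lt.c, Lt.b, Lt.ai, Lt.b, Lt.a, Lt.b, Lt.a, Lt.b, Lt.ai, Lt.ai] (pat hy (rf_2 hy) 1 rfl) h
    · rcases brec_true h with h | h
      · exact mRel_good (T := T) hM0 [Lt.a, Lt.b, Lt.ai, Lt.ai, Lt.b] [Lt.ai, Lt.b, Lt.ai, Lt.b, Lt.a, Lt.a, Lt.b, Lt.ai, Lt.ai, Lt.b, Lt.ai] (pat hy (rf_6 hy) 1 rfl) h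
      · exact mRel_good (T := T) hM0 [Lt.b, Lt.ai, Lt.b, Lt.ai] [Lt.ai, Lt.ai, Lt.ci, Lt.b, Lt.ci, Lt.b, Lt.c, Lt.b, Lt.ai, Lt.b] (pat hy (rf_2 hy) 7 rfl) h
  · rcases brec_true h with h | h
    · exact mRel_good (T := T) hM0 [Lt.a, Lt.c, Lt.ai, Lt.ai, Lt.b, Lt.c, Lt.b, Lt.a, Lt.a] [Lt.b, Lt.ai, Lt.b, Lt.ai, Lt.ai, Lt.c] (pat hy (rf_3 hy) 14 rfl) h
    · rcases brec_true h with h | h
      · exact mRel_good (T := T) hM0 [Lt.ai, Lt.ai, Lt.c] [Lt.b, Lt.a, Lt.b, Lt.a, Lt.c, Lt.ai, Lt.ai, Lt.b, Lt.c, Lt.b, Lt.a, Lt.a] (pat hy (rb_3 hy) 4 rfl) h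
      · exact mRel_good (T := T) hM0 [Lt.b, Lt.ai, Lt.b, Lt.ai, Lt.ai, Lt.b, Lt.a, Lt.b, Lt.ci, Lt.ci, Lt.b] [Lt.ai, Lt.b, Lt.ci, Lt.ci] (pat hy (rb_5 hy) 2 rfl) h
theorem dM_9_s (hy : Hy g H) (j z1 z2 u : ℕ) (h : dM_9 j z1 z2 u = true) : GdM g H u := by
  unfold dM_9 at h
  rcases brec_true h with h | h
  · rcases brec_true h with h | h
    · exact mRel_good (T := T) hM0 [Lt.b, Lt.ai, Lt.b, Lt.ai, Lt.ai, Lt.c, Lt.ai, Lt.ai, Lt.b] [Lt.a, Lt.c, Lt.ai, Lt.ai, Lt.b, Lt.c] (pat hy (rb_3 hy) 1 rfl) h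
    · rcases brec_true h with h | h
      · exact mRel_good (T := T) hM0 [Lt.a, Lt.b, Lt.ai, Lt.ai, Lt.ci, Lt.b, Lt.ci, Lt.b] [Lt.b, Lt.ai, Lt.b, Lt.a, Lt.b, Lt.ci] (pat hy (rb_2 hy) 5 rfl) h
      · exact mRel_good (T := T) hM0 [Lt.b, Lt.ai, Lt.ai, Lt.ai, Lt.b, Lt.ai, Lt.ai, Lt.ai, Lt.b, Lt.ai, Lt.ai] [Lt.a] (pat hy (rb_1 hy) 0 rfl) h
  · rcases brec_true h with h | h
    · rcases brec_true h with h | h
      · exact mRel_good (T := T) hM0 [Lt.a, Lt.b, Lt.a, Lt.c, Lt.ai] [Lt.b, Lt.ai, Lt.ai, Lt.c, Lt.ai, Lt.ai, Lt.b, Lt.ci, Lt.b, Lt.a] (pat hy (rf_3 hy) 12 rfl) h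
      · exact mRel_good (T := T) hM0 [Lt.b, Lt.ai, Lt.ai, Lt.ai, Lt.b, Lt.ai, Lt.ai, Lt.ai] [Lt.a, Lt.a, Lt.a, Lt.b] (pat hy (rb_1 hy) 0 rfl) h
    · rcases brec_true h with h | h
      · exact mRel_good (T := T) hM0 [Lt.a, Lt.a, Lt.b, Lt.ai, Lt.b, Lt.ai, Lt.b, Lt.a, Lt.b] [Lt.ci, Lt.b, Lt.ci, Lt.b, Lt.c] (pat hy (rf_2 hy) 5 rfl) h
      · exact mRel_good (T := T) hM0 [Lt.c, Lt.b, Lt.a, Lt.a, Lt.ci, Lt.a, Lt.a, Lt.b, Lt.a, Lt.b, Lt.a, Lt.c, Lt.ai, Lt.ai] [Lt.b] (pat hy (rf_3 hy) 4 rfl) h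
theorem dM_10_s (hy : Hy g H) (j z1 z2 u : ℕ) (h : dM_10 j z1 z2 u = true) : GdM g H u := by
  unfold dM_10 at h
  rcases brec_true h with h | h
  · exact dM_8_s hy j z1 z2 u h
  · exact dM_9_s hy j z1 z2 u h
theorem dM_11_s (hy : Hy g H) (j z1 z2 u : ℕ) (h : dM_11 j z1 z2 u = true) : GdM g H u := by
  unfold dM_11 at h
  rcases brec_true h with h | h
  · exact dM_7_s hy j z1 z2 u h
  · exact dM_10_s hy j z1 z2 u h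
theorem dM_12_s (hy : Hy g H) (j z1 z2 u : ℕ) (h : dM_12 j z1 z2 u = true) : GdM g H u := by
  unfold dM_12 at h
  rcases brec_true h with h | h
  · rcases brec_true h with h | h
    · exact mRel_good (T := T) hM0 [Lt.b, Lt.c, Lt.b, Lt.a, Lt.a, Lt.ci, Lt.a, Lt.a, Lt.b, Lt.a] [Lt.a, Lt.a, Lt.ci, Lt.ai, Lt.b] (pat hy (rf_3 hy) 3 rfl) h
    · rcases brec_true h with h | h
      · exact mRel_good (T := T) hM0 [Lt.a, Lt.ci, Lt.a, Lt.a, Lt.b, Lt.a, Lt.b, Lt.a, Lt.c] [Lt.ai, Lt.b, Lt.ci, Lt.b, Lt.a, Lt.a] (pat hy (rf_3 hy) 7 rfl) h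
      · exact mRel_good (T := T) hM0 [Lt.a, Lt.a, Lt.b, Lt.a, Lt.a, Lt.a, Lt.b] [Lt.ai, Lt.b, Lt.ai, Lt.ai, Lt.ai] (pat hy (rf_1 hy) 1 rfl) h
  · rcases brec_true h with h | h
    · exact mRel_good (T := T) hM0 [Lt.c, Lt.ai, Lt.ai, Lt.b, Lt.ci, Lt.b, Lt.a, Lt.a, Lt.ci, Lt.ai, Lt.b] [Lt.a, Lt.a, Lt.b, Lt.a] (pat hy (rb_3 hy) 6 rfl) h
    · rcases brec_true h with h | h
      · exact mRel_good (T := T) hM0 [Lt.a, Lt.b, Lt.a, Lt.a, Lt.a, Lt.a, Lt.b, Lt.a] [Lt.ci, Lt.b, Lt.c, Lt.b, Lt.c, Lt.a, Lt.b] (pat hy (rf_4 hy) 5 rfl) h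
      · exact mRel_good (T := T) hM0 [Lt.b, Lt.ai, Lt.b, Lt.a, Lt.b, Lt.ci, Lt.b, Lt.c] [Lt.a, Lt.b, Lt.ai, Lt.ai, Lt.ci, Lt.b] (pat hy (rf_2 hy) 9 rfl) h
theorem dM_13_s (hy : Hy g H) (j z1 z2 u : ℕ) (h : dM_13 j z1 z2 u = true) : GdM g H u := by
  unfold dM_13 at h
  rcases brec_true h with h | h
  · rcases brec_true h with h | h
    · exact mRel_good (T := T) hM0 [Lt.b, Lt.a, Lt.b, Lt.ai, Lt.ai, Lt.ci, Lt.b, Lt.ci, Lt.b, Lt.c, Lt.b] [Lt.ai, Lt.b, Lt.a] (pat hy (rb_2 hy) 4 rfl) h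
    · rcases brec_true h with h | h
      · exact mRel_good (T := T) hM0 [Lt.a, Lt.b, Lt.a, Lt.b, Lt.ai, Lt.ai, Lt.ci, Lt.b, Lt.ci, Lt.b, Lt.c, Lt.b, Lt.ai] [Lt.b] (pat hy (rb_2 hy) 3 rfl) h
      · exact mRel_good (T := T) hM0 [Lt.ai, Lt.ai, Lt.b, Lt.a, Lt.b, Lt.ci, Lt.ci, Lt.b] [Lt.b, Lt.a, Lt.b, Lt.ai, Lt.b, Lt.ci, Lt.ci] (pat hy (rb_5 hy) 5 rfl) h
  · rcases brec_true h with h | h
    · rcases brec_true h with h | h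
      · exact mRel_good (T := T) hM0 [Lt.b, Lt.ci, Lt.ci, Lt.b, Lt.c, Lt.c, Lt.b, Lt.a, Lt.b, Lt.ai] [Lt.ai, Lt.b, Lt.a, Lt.a, Lt.b] (pat hy (rb_5 hy) 9 rfl) h
      · exact mRel_good (T := T) hM0 [Lt.a, Lt.b, Lt.a, Lt.c, Lt.ai, Lt.ai, Lt.b] [Lt.b, Lt.ai, Lt.ai, Lt.c, Lt.ai, Lt.ai, Lt.b, Lt.ci] (pat hy (rf_3 hy) 12 rfl) h
    · rcases brec_true h with h | h
      · exact mRel_good (T := T) hM0 [Lt.a, Lt.b, Lt.a, Lt.a, Lt.a, Lt.b, Lt.a, Lt.a, Lt.a, Lt.b] [Lt.ai, Lt.ai] (pat hy (rf_1 hy) 2 rfl) h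
      · exact mRel_good (T := T) hM0 [Lt.ai, Lt.b, Lt.a, Lt.b, Lt.a, Lt.b, Lt.ai, Lt.ai, Lt.ci] [Lt.b, Lt.ci, Lt.b, Lt.c, Lt.b] (pat hy (rb_2 hy) 1 rfl) h
theorem dM_14_s (hy : Hy g H) (j z1 z2 u : ℕ) (h : dM_14 j z1 z2 u = true) : GdM g H u := by
  unfold dM_14 at h
  rcases brec_true h with h | h
  · exact dM_12_s hy j z1 z2 u h
  · exact dM_13_s hy j z1 z2 u h
theorem dM_15_s (hy : Hy g H) (j z1 z2 u : ℕ) (h : dM_15 j z1 z2 u = true) : GdM g H u := by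
  unfold dM_15 at h
  rcases brec_true h with h | h
  · rcases brec_true h with h | h
    · exact mRel_good (T := T) hM0 [Lt.a, Lt.b, Lt.a, Lt.b, Lt.a] [Lt.ai, Lt.c, Lt.ai, Lt.ai, Lt.b, Lt.ci, Lt.b, Lt.a, Lt.a, Lt.ci] (pat hy (rf_3 hy) 10 rfl) h
    · rcases brec_true h with h | h
      · exact mRel_good (T := T) hM0 [Lt.b, Lt.ci, Lt.b, Lt.c, Lt.b, Lt.ai, Lt.b, Lt.a, Lt.b, Lt.a, Lt.b, Lt.ai, Lt.ai] [Lt.c] (pat hy (rb_2 hy) 10 rfl) h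
      · exact mRel_good (T := T) hM0 [Lt.b, Lt.ai, Lt.ai, Lt.ai, Lt.b, Lt.ai] [Lt.a, Lt.a, Lt.a, Lt.b, Lt.a, Lt.a] (pat hy (rb_1 hy) 0 rfl) h
  · rcases brec_true h with h | h
    · exact mRel_good (T := T) hM0 [Lt.ai] [Lt.a, Lt.b, Lt.ai, Lt.b, Lt.ai, Lt.b, Lt.a, Lt.b, Lt.ci, Lt.b, Lt.c, Lt.b, Lt.c] (pat hy (rb_2 hy) 8 rfl) h
    · rcases brec_true h with h | h
      · exact mRel_good (T := T) hM0 [Lt.ai, Lt.ai, Lt.b, Lt.c, Lt.b, Lt.a, Lt.a, Lt.ci, Lt.a, Lt.a, Lt.b, Lt.a] [Lt.ci, Lt.ai, Lt.b] (pat hy (rf_3 hy) 1 rfl) h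
      · exact mRel_good (T := T) hM0 [Lt.ai, Lt.b, Lt.ci, Lt.b, Lt.a, Lt.a, Lt.ci, Lt.ai] [Lt.a, Lt.ci, Lt.a, Lt.a, Lt.b, Lt.a, Lt.b] (pat hy (rb_3 hy) 8 rfl) h
theorem dM_16_s (hy : Hy g H) (j z1 z2 u : ℕ) (h : dM_16 j z1 z2 u = true) : GdM g H u := by
  unfold dM_16 at h
  rcases brec_true h with h | h
  · rcases brec_true h with h | h
    · exact mRel_good (T := T) hM0 [Lt.b, Lt.c, Lt.b, Lt.ai, Lt.b, Lt.a, Lt.b, Lt.a, Lt.b, Lt.ai, Lt.ai, Lt.ci, Lt.b] [Lt.c] (pat hy (rb_2 hy) 12 rfl) h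
    · rcases brec_true h with h | h
      · exact mRel_good (T := T) hM0 [Lt.ai, Lt.b, Lt.ai, Lt.b, Lt.ai, Lt.ai, Lt.c, Lt.ai, Lt.ai, Lt.b, Lt.ci, Lt.b] [Lt.c, Lt.ai, Lt.ai] (pat hy (rb_3 hy) 0 rfl) h
      · exact mRel_good (T := T) hM0 [Lt.ai, Lt.b, Lt.ai, Lt.ai, Lt.b, Lt.a, Lt.b, Lt.ci, Lt.ci, Lt.b, Lt.c, Lt.c] [Lt.b, Lt.ai, Lt.b] (pat hy (rb_5 hy) 3 rfl) h
  · rcases brec_true h with h | h
    · rcases brec_true h with h | h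
      · exact mRel_good (T := T) hM0 [Lt.b, Lt.ai, Lt.ai, Lt.ci, Lt.b, Lt.ci, Lt.b] [Lt.ai, Lt.b, Lt.ai, Lt.b, Lt.a, Lt.b, Lt.ci] (pat hy (rb_2 hy) 6 rfl) h
      · exact mRel_good (T := T) hM0 [Lt.a, Lt.a, Lt.a, Lt.b, Lt.a, Lt.a, Lt.a, Lt.b, Lt.a, Lt.a, Lt.a, Lt.b] [] (pat hy (rf_1 hy) 0 rfl) h
    · rcases brec_true h with h | h
      · exact mRel_good (T := T) hM0 [Lt.c, Lt.a, Lt.a, Lt.b, Lt.ai, Lt.b, Lt.ai, Lt.b, Lt.a, Lt.b] [Lt.b, Lt.ci, Lt.b, Lt.c] (pat hy (rf_2 hy) 4 rfl) h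
      · exact mRel_good (T := T) hM0 [Lt.c, Lt.b, Lt.a, Lt.a, Lt.ci] [Lt.b, Lt.a, Lt.a, Lt.ci, Lt.ai, Lt.b, Lt.ai, Lt.b, Lt.ai, Lt.ai] (pat hy (rf_3 hy) 4 rfl) h
theorem dM_17_s (hy : Hy g H) (j z1 z2 u : ℕ) (h : dM_17 j z1 z2 u = true) : GdM g H u := by
  unfold dM_17 at h
  rcases brec_true h with h | h
  · exact dM_15_s hy j z1 z2 u h
  · exact dM_16_s hy j z1 z2 u h
theorem dM_18_s (hy : Hy g H) (j z1 z2 u : ℕ) (h : dM_18 j z1 z2 u = true) : GdM g H u := by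
  unfold dM_18 at h
  rcases brec_true h with h | h
  · exact dM_14_s hy j z1 z2 u h
  · exact dM_17_s hy j z1 z2 u h
theorem dM_19_s (hy : Hy g H) (j z1 z2 u : ℕ) (h : dM_19 j z1 z2 u = true) : GdM g H u := by
  unfold dM_19 at h
  rcases brec_true h with h | h
  · exact dM_11_s hy j z1 z2 u h
  · exact dM_18_s hy j z1 z2 u h
theorem dM_20_s (hy : Hy g H) (j z1 z2 u : ℕ) (h : dM_20 j z1 z2 u = true) : GdM g H u := by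
  unfold dM_20 at h
  rcases brec_true h with h | h
  · exact dM_6_s hy j z1 z2 u h
  · exact dM_19_s hy j z1 z2 u h
theorem dM_21_s (hy : Hy g H) (j z1 z2 u : ℕ) (h : dM_21 j z1 z2 u = true) : GdM g H u := by
  unfold dM_21 at h
  rcases brec_true h with h | h
  · rcases brec_true h with h | h
    · rcases brec_true h with h | h
      · exact mRel_good (T := T) hM0 [Lt.ci, Lt.a, Lt.a, Lt.b, Lt.a, Lt.b, Lt.a, Lt.c] [Lt.ai, Lt.ai, Lt.b, Lt.ci, Lt.b, Lt.a, Lt.a] (pat hy (rf_3 hy) 8 rfl) h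
      · rcases brec_true h with h | h
        · exact mRel_good (T := T) hM0 [Lt.c, Lt.b, Lt.ai, Lt.b, Lt.a, Lt.b, Lt.a, Lt.b] [Lt.b, Lt.c, Lt.b, Lt.c, Lt.a, Lt.a] (pat hy (rb_2 hy) 13 rfl) h
        · exact mRel_good (T := T) hM0 [Lt.b, Lt.ci, Lt.b, Lt.a, Lt.a, Lt.ci, Lt.ai, Lt.b, Lt.ai, Lt.b, Lt.ai, Lt.ai, Lt.c, Lt.ai, Lt.ai] [] (pat hy (rb_3 hy) 9 rfl) h
    · rcases brec_true h with h | h
      · exact mRel_good (T := T) hM0 [Lt.ai, Lt.b, Lt.ai, Lt.b, Lt.a, Lt.b] [Lt.b, Lt.ai, Lt.ai, Lt.ci, Lt.b, Lt.ci, Lt.b, Lt.c] (pat hy (rf_2 hy) 8 rfl) h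
      · rcases brec_true h with h | h
        · exact mRel_good (T := T) hM0 [Lt.ai, Lt.ci, Lt.b] [Lt.a, Lt.b, Lt.ai, Lt.b, Lt.ai, Lt.b, Lt.a, Lt.b, Lt.ci, Lt.b, Lt.c] (pat hy (rb_2 hy) 8 rfl) h
        · exact mRel_good (T := T) hM0 [Lt.b, Lt.a, Lt.b, Lt.ai, Lt.ai] [Lt.ai, Lt.b, Lt.a, Lt.b, Lt.ci, Lt.b, Lt.c, Lt.b, Lt.c] (pat hy (rb_2 hy) 4 rfl) h
  · rcases brec_true h with h | h
    · rcases brec_true h with h | h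
      · exact mRel_good (T := T) hM0 [Lt.b] [Lt.a, Lt.b, Lt.a, Lt.b, Lt.ai, Lt.ai, Lt.ci, Lt.b, Lt.ci, Lt.b, Lt.c, Lt.b, Lt.ai] (pat hy (rf_2 hy) 11 rfl) h
      · rcases brec_true h with h | h
        · exact mRel_good (T := T) hM0 [Lt.a, Lt.b, Lt.a, Lt.b, Lt.ai, Lt.ai, Lt.ci, Lt.b] [Lt.b, Lt.a, Lt.b, Lt.ci, Lt.b, Lt.c] (pat hy (rb_2 hy) 3 rfl) h
        · exact mRel_good (T := T) hM0 [Lt.b, Lt.ai, Lt.ai, Lt.b, Lt.a, Lt.b, Lt.a, Lt.b, Lt.ai] [Lt.ai, Lt.b, Lt.ci, Lt.b, Lt.c, Lt.b, Lt.c, Lt.b, Lt.a] (pat hy (rb_7 hy) 2 rfl) h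
    · rcases brec_true h with h | h
      · exact mRel_good (T := T) hM0 [Lt.ai, Lt.ai, Lt.ai, Lt.b, Lt.ai, Lt.ai, Lt.ai, Lt.b, Lt.ai, Lt.ai] [Lt.b, Lt.a] (pat hy (rb_1 hy) 1 rfl) h
      · rcases brec_true h with h | h
        · exact mRel_good (T := T) hM0 [Lt.a, Lt.a, Lt.b, Lt.a, Lt.b, Lt.a, Lt.c, Lt.ai] [Lt.c, Lt.ai, Lt.ai, Lt.b, Lt.ci, Lt.b, Lt.a] (pat hy (rf_3 hy) 9 rfl) h
        · exact mRel_good (T := T) hM0 [Lt.a, Lt.b, Lt.ai, Lt.b, Lt.ai, Lt.ai, Lt.ai, Lt.ai, Lt.b, Lt.ai, Lt.ci, Lt.b, Lt.c, Lt.b, Lt.c] [] (pat hy (rb_4 hy) 0 rfl) h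
theorem dM_22_s (hy : Hy g H) (j z1 z2 u : ℕ) (h : dM_22 j z1 z2 u = true) : GdM g H u := by
  unfold dM_22 at h
  rcases brec_true h with h | h
  · rcases brec_true h with h | h
    · exact mRel_good (T := T) hM0 [Lt.a, Lt.b, Lt.a, Lt.b, Lt.a, Lt.c, Lt.ai, Lt.ai, Lt.b, Lt.c, Lt.b, Lt.a] [Lt.ai, Lt.c, Lt.ai] (pat hy (rf_3 hy) 10 rfl) h
    · rcases brec_true h with h | h
      · exact mRel_good (T := T) hM0 [Lt.a, Lt.b, Lt.ci, Lt.b, Lt.c, Lt.b] [Lt.b, Lt.a, Lt.b, Lt.a, Lt.b, Lt.ai, Lt.ai, Lt.ci] (pat hy (rf_2 hy) 12 rfl) h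
      · exact mRel_good (T := T) hM0 [Lt.a, Lt.a, Lt.b, Lt.ai, Lt.b, Lt.ai, Lt.b] [Lt.ci, Lt.b, Lt.ci, Lt.b, Lt.c, Lt.b, Lt.ai] (pat hy (rf_2 hy) 5 rfl) h
  · rcases brec_true h with h | h
    · exact mRel_good (T := T) hM0 [Lt.ai, Lt.b, Lt.ai, Lt.b, Lt.a, Lt.b, Lt.ci, Lt.b] [Lt.b, Lt.ai, Lt.ai, Lt.ci, Lt.b, Lt.ci] (pat hy (rf_2 hy) 8 rfl) h
    · rcases brec_true h with h | h
      · exact mRel_good (T := T) hM0 [Lt.a, Lt.ci, Lt.ai, Lt.b, Lt.ai, Lt.b, Lt.ai, Lt.ai, Lt.c, Lt.ai, Lt.ai] [Lt.ai, Lt.b, Lt.c, Lt.b] (pat hy (rb_3 hy) 13 rfl) h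
      · exact mRel_good (T := T) hM0 [Lt.b, Lt.ai, Lt.ai] [Lt.ai, Lt.b, Lt.ai, Lt.b, Lt.a, Lt.b, Lt.ci, Lt.b, Lt.c, Lt.b, Lt.c] (pat hy (rb_2 hy) 6 rfl) h
theorem dM_23_s (hy : Hy g H) (j z1 z2 u : ℕ) (h : dM_23 j z1 z2 u = true) : GdM g H u := by
  unfold dM_23 at h
  rcases brec_true h with h | h
  · rcases brec_true h with h | h
    · exact mRel_good (T := T) hM0 [Lt.b, Lt.ci, Lt.b, Lt.c, Lt.b, Lt.ai, Lt.b, Lt.a, Lt.b, Lt.a, Lt.b, Lt.ai, Lt.ai, Lt.ci] [] (pat hy (rb_2 hy) 10 rfl) h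
    · rcases brec_true h with h | h
      · exact mRel_good (T := T) hM0 [Lt.ai, Lt.b, Lt.ai, Lt.b, Lt.ai, Lt.ai, Lt.c, Lt.ai] [Lt.c, Lt.ai, Lt.ai, Lt.b, Lt.c, Lt.b, Lt.a] (pat hy (rb_3 hy) 0 rfl) h
      · exact mRel_good (T := T) hM0 [Lt.ai, Lt.ai, Lt.ai, Lt.b, Lt.ai, Lt.ai, Lt.ai] [Lt.b, Lt.a, Lt.a, Lt.a, Lt.b] (pat hy (rb_1 hy) 1 rfl) h
  · rcases brec_true h with h | h
    · rcases brec_true h with h | h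
      · exact mRel_good (T := T) hM0 [Lt.ai, Lt.ai, Lt.c, Lt.ai, Lt.ai] [Lt.b, Lt.a, Lt.b, Lt.a, Lt.c, Lt.ai, Lt.ai, Lt.b, Lt.c, Lt.b] (pat hy (rb_3 hy) 4 rfl) h
      · exact mRel_good (T := T) hM0 [Lt.b, Lt.a, Lt.a, Lt.a, Lt.b, Lt.a, Lt.a, Lt.a, Lt.b] [Lt.ai, Lt.ai, Lt.ai] (pat hy (rf_1 hy) 3 rfl) h
    · rcases brec_true h with h | h
      · exact mRel_good (T := T) hM0 [Lt.ai, Lt.b, Lt.ci, Lt.ci, Lt.b] [Lt.b, Lt.ai, Lt.b, Lt.ai, Lt.ai, Lt.b, Lt.a, Lt.b, Lt.ci, Lt.ci] (pat hy (rf_5 hy) 13 rfl) h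
      · exact mRel_good (T := T) hM0 [Lt.a, Lt.b, Lt.ai, Lt.ai, Lt.ci, Lt.b] [Lt.b, Lt.ai, Lt.b, Lt.a, Lt.b, Lt.ci, Lt.b, Lt.c] (pat hy (rb_2 hy) 5 rfl) h
theorem dM_24_s (hy : Hy g H) (j z1 z2 u : ℕ) (h : dM_24 j z1 z2 u = true) : GdM g H u := by
  unfold dM_24 at h
  rcases brec_true h with h | h
  · exact dM_22_s hy j z1 z2 u h
  · exact dM_23_s hy j z1 z2 u h
theorem dM_25_s (hy : Hy g H) (j z1 z2 u : ℕ) (h : dM_25 j z1 z2 u = true) : GdM g H u := by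
  unfold dM_25 at h
  rcases brec_true h with h | h
  · exact dM_21_s hy j z1 z2 u h
  · exact dM_24_s hy j z1 z2 u h
theorem dM_26_s (hy : Hy g H) (j z1 z2 u : ℕ) (h : dM_26 j z1 z2 u = true) : GdM g H u := by
  unfold dM_26 at h
  rcases brec_true h with h | h
  · rcases brec_true h with h | h
    · rcases brec_true h with h | h
      · exact mRel_good (T := T) hM0 [Lt.ai, Lt.b, Lt.ci, Lt.b, Lt.a, Lt.a, Lt.ci] [Lt.a, Lt.ci, Lt.a, Lt.a, Lt.b, Lt.a, Lt.b, Lt.a] (pat hy (rb_3 hy) 8 rfl) h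
      · rcases brec_true h with h | h
        · exact mRel_good (T := T) hM0 [Lt.b, Lt.ai, Lt.b, Lt.a, Lt.b, Lt.a, Lt.b, Lt.ai] [Lt.ci, Lt.b, Lt.c, Lt.b, Lt.c, Lt.a] (pat hy (rb_2 hy) 0 rfl) h
        · exact mRel_good (T := T) hM0 [Lt.a, Lt.a, Lt.ci, Lt.ai, Lt.b, Lt.ai, Lt.b, Lt.ai, Lt.ai, Lt.c, Lt.ai, Lt.ai, Lt.b] [Lt.b, Lt.c] (pat hy (rb_3 hy) 12 rfl) h
    · rcases brec_true h with h | h
      · exact mRel_good (T := T) hM0 [Lt.a, Lt.b, Lt.ai, Lt.b, Lt.ai, Lt.b, Lt.a, Lt.b, Lt.ci, Lt.b, Lt.c, Lt.b, Lt.c] [Lt.ai] (pat hy (rf_2 hy) 6 rfl) h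
      · rcases brec_true h with h | h
        · exact mRel_good (T := T) hM0 [Lt.ai, Lt.ai, Lt.c, Lt.ai, Lt.ai, Lt.b, Lt.ci, Lt.b, Lt.a] [Lt.b, Lt.a, Lt.b, Lt.a, Lt.c, Lt.ai] (pat hy (rb_3 hy) 4 rfl) h
        · exact mRel_good (T := T) hM0 [Lt.a, Lt.b, Lt.a, Lt.b, Lt.ai, Lt.ai, Lt.ci, Lt.b, Lt.ci] [Lt.b, Lt.a, Lt.b, Lt.ci, Lt.b] (pat hy (rb_2 hy) 3 rfl) h
  · rcases brec_true h with h | h
    · rcases brec_true h with h | h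
      · exact mRel_good (T := T) hM0 [Lt.ai, Lt.ai, Lt.b] [Lt.a, Lt.b, Lt.a, Lt.a, Lt.a, Lt.b, Lt.a, Lt.a, Lt.a] (pat hy (rb_1 hy) 2 rfl) h
      · rcases brec_true h with h | h
        · exact mRel_good (T := T) hM0 [Lt.b, Lt.c] [Lt.ci, Lt.b, Lt.c, Lt.b, Lt.ai, Lt.b, Lt.a, Lt.b, Lt.a, Lt.b, Lt.ai, Lt.ai] (pat hy (rf_2 hy) 3 rfl) h
        · exact mRel_good (T := T) hM0 [Lt.b, Lt.a, Lt.b, Lt.ai, Lt.ai, Lt.ci, Lt.b, Lt.ci, Lt.b, Lt.c, Lt.b, Lt.ai, Lt.b] [Lt.ai] (pat hy (rb_2 hy) 4 rfl) h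
    · rcases brec_true h with h | h
      · exact mRel_good (T := T) hM0 [Lt.ai, Lt.b, Lt.ai, Lt.ai, Lt.c, Lt.ai] [Lt.b, Lt.a, Lt.c, Lt.ai, Lt.ai, Lt.b, Lt.c, Lt.b, Lt.a] (pat hy (rb_3 hy) 2 rfl) h
      · rcases brec_true h with h | h
        · exact mRel_good (T := T) hM0 [Lt.b, Lt.ai, Lt.ai, Lt.ci, Lt.b] [Lt.ai, Lt.b, Lt.ai, Lt.b, Lt.a, Lt.b, Lt.ci, Lt.b, Lt.c] (pat hy (rb_2 hy) 6 rfl) h
        · exact mRel_good (T := T) hM0 [Lt.ai, Lt.b, Lt.a, Lt.b, Lt.ci, Lt.b, Lt.c, Lt.b] [Lt.b, Lt.a, Lt.b, Lt.ai, Lt.ai, Lt.ci] (pat hy (rf_2 hy) 10 rfl) h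
theorem dM_27_s (hy : Hy g H) (j z1 z2 u : ℕ) (h : dM_27 j z1 z2 u = true) : GdM g H u := by
  unfold dM_27 at h
  rcases brec_true h with h | h
  · rcases brec_true h with h | h
    · exact mRel_good (T := T) hM0 [Lt.ci, Lt.b, Lt.ci, Lt.b, Lt.c] [Lt.a, Lt.a, Lt.b, Lt.ai, Lt.b, Lt.ai, Lt.b, Lt.a, Lt.b] (pat hy (rb_2 hy) 9 rfl) h
    · rcases brec_true h with h | h
      · exact mRel_good (T := T) hM0 [Lt.a, Lt.b, Lt.a, Lt.a, Lt.a, Lt.b, Lt.a, Lt.a, Lt.a] [Lt.ai, Lt.ai, Lt.b] (pat hy (rf_1 hy) 2 rfl) h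
      · exact mRel_good (T := T) hM0 [Lt.a, Lt.a, Lt.b, Lt.a, Lt.a, Lt.a, Lt.b, Lt.a, Lt.a, Lt.a, Lt.b] [Lt.ai] (pat hy (rf_1 hy) 1 rfl) h
  · rcases brec_true h with h | h
    · exact mRel_good (T := T) hM0 [Lt.b, Lt.a, Lt.b, Lt.ci, Lt.b, Lt.c, Lt.b, Lt.c, Lt.a, Lt.a, Lt.b] [Lt.a, Lt.b, Lt.a] (pat hy (rf_2 hy) 11 rfl) h
    · rcases brec_true h with h | h
      · exact mRel_good (T := T) hM0 [Lt.ai, Lt.b, Lt.ai, Lt.ai, Lt.c, Lt.ai, Lt.ai, Lt.b, Lt.ci, Lt.b, Lt.a] [Lt.b, Lt.a, Lt.c, Lt.ai] (pat hy (rb_3 hy) 2 rfl) h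
      · exact mRel_good (T := T) hM0 [Lt.a, Lt.b, Lt.a, Lt.b, Lt.ai, Lt.ai, Lt.ci] [Lt.b, Lt.a, Lt.b, Lt.ci, Lt.b, Lt.c, Lt.b] (pat hy (rb_2 hy) 3 rfl) h
theorem dM_28_s (hy : Hy g H) (j z1 z2 u : ℕ) (h : dM_28 j z1 z2 u = true) : GdM g H u := by
  unfold dM_28 at h
  rcases brec_true h with h | h
  · rcases brec_true h with h | h
    · exact mRel_good (T := T) hM0 [Lt.b, Lt.ai, Lt.ai, Lt.ai, Lt.b, Lt.ai, Lt.ai] [Lt.a, Lt.a, Lt.a, Lt.b, Lt.a] (pat hy (rb_1 hy) 0 rfl) h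
    · rcases brec_true h with h | h
      · exact mRel_good (T := T) hM0 [Lt.b, Lt.ai, Lt.b, Lt.a, Lt.b, Lt.ci, Lt.b, Lt.c, Lt.b] [Lt.a, Lt.b, Lt.ai, Lt.ai, Lt.ci] (pat hy (rf_2 hy) 9 rfl) h
      · exact mRel_good (T := T) hM0 [Lt.b, Lt.ai, Lt.ai] [Lt.a, Lt.a, Lt.a, Lt.b, Lt.a, Lt.a, Lt.a, Lt.b, Lt.a] (pat hy (rb_1 hy) 0 rfl) h
  · rcases brec_true h with h | h
    · rcases brec_true h with h | h
      · exact mRel_good (T := T) hM0 [Lt.b, Lt.ai, Lt.b, Lt.ai, Lt.b] [Lt.ai, Lt.ai, Lt.ci, Lt.b, Lt.ci, Lt.b, Lt.c, Lt.b, Lt.ai] (pat hy (rf_2 hy) 7 rfl) h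
      · exact mRel_good (T := T) hM0 [Lt.b, Lt.a, Lt.b, Lt.a, Lt.b, Lt.ai, Lt.ai, Lt.ci, Lt.b, Lt.ci] [Lt.a, Lt.b, Lt.ci, Lt.b] (pat hy (rb_2 hy) 2 rfl) h
    · rcases brec_true h with h | h
      · exact mRel_good (T := T) hM0 [Lt.a, Lt.a, Lt.b, Lt.a, Lt.b, Lt.ai, Lt.b, Lt.ci, Lt.ci, Lt.b] [Lt.b, Lt.a, Lt.b, Lt.ci, Lt.ci] (pat hy (rf_5 hy) 8 rfl) h
      · exact mRel_good (T := T) hM0 [Lt.a, Lt.b, Lt.ci, Lt.b, Lt.c, Lt.b, Lt.c, Lt.a] [Lt.b, Lt.a, Lt.b, Lt.a, Lt.b, Lt.ai] (pat hy (rf_2 hy) 12 rfl) h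
theorem dM_29_s (hy : Hy g H) (j z1 z2 u : ℕ) (h : dM_29 j z1 z2 u = true) : GdM g H u := by
  unfold dM_29 at h
  rcases brec_true h with h | h
  · exact dM_27_s hy j z1 z2 u h
  · exact dM_28_s hy j z1 z2 u h
theorem dM_30_s (hy : Hy g H) (j z1 z2 u : ℕ) (h : dM_30 j z1 z2 u = true) : GdM g H u := by
  unfold dM_30 at h
  rcases brec_true h with h | h
  · exact dM_26_s hy j z1 z2 u h
  · exact dM_29_s hy j z1 z2 u h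
theorem dM_31_s (hy : Hy g H) (j z1 z2 u : ℕ) (h : dM_31 j z1 z2 u = true) : GdM g H u := by
  unfold dM_31 at h
  rcases brec_true h with h | h
  · exact dM_25_s hy j z1 z2 u h
  · exact dM_30_s hy j z1 z2 u h
theorem dM_32_s (hy : Hy g H) (j z1 z2 u : ℕ) (h : dM_32 j z1 z2 u = true) : GdM g H u := by
  unfold dM_32 at h
  rcases brec_true h with h | h
  · rcases brec_true h with h | h
    · rcases brec_true h with h | h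
      · exact mRel_good (T := T) hM0 [Lt.b, Lt.ci, Lt.b, Lt.a, Lt.a, Lt.ci] [Lt.a, Lt.a, Lt.ci, Lt.a, Lt.a, Lt.b, Lt.a, Lt.b, Lt.a] (pat hy (rb_3 hy) 9 rfl) h
      · rcases brec_true h with h | h
        · exact mRel_good (T := T) hM0 [Lt.a, Lt.a, Lt.a, Lt.b, Lt.a, Lt.a] [Lt.b, Lt.ai, Lt.ai, Lt.ai, Lt.b, Lt.ai] (pat hy (rf_1 hy) 0 rfl) h
        · exact mRel_good (T := T) hM0 [Lt.a, Lt.ci, Lt.a, Lt.a, Lt.b, Lt.a, Lt.b, Lt.a, Lt.c, Lt.ai, Lt.ai, Lt.b] [Lt.ai, Lt.b, Lt.ci] (pat hy (rf_3 hy) 7 rfl) h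
    · rcases brec_true h with h | h
      · exact mRel_good (T := T) hM0 [Lt.b] [Lt.ai, Lt.ai, Lt.ai, Lt.b, Lt.ai, Lt.ai, Lt.ai, Lt.b, Lt.ai, Lt.ai, Lt.ai] (pat hy (rf_1 hy) 3 rfl) h
      · rcases brec_true h with h | h
        · exact mRel_good (T := T) hM0 [Lt.b, Lt.ai, Lt.b, Lt.ai, Lt.ai, Lt.c, Lt.ai, Lt.ai, Lt.b, Lt.ci, Lt.b, Lt.a, Lt.a] [Lt.a, Lt.c] (pat hy (rb_3 hy) 1 rfl) h
        · exact mRel_good (T := T) hM0 [Lt.a, Lt.a, Lt.b, Lt.a, Lt.b] [Lt.c, Lt.ai, Lt.ai, Lt.b, Lt.ci, Lt.b, Lt.a, Lt.a, Lt.ci, Lt.ai] (pat hy (rf_3 hy) 9 rfl) h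
  · rcases brec_true h with h | h
    · rcases brec_true h with h | h
      · exact mRel_good (T := T) hM0 [Lt.b, Lt.ai, Lt.b, Lt.a, Lt.b, Lt.ci, Lt.b, Lt.c, Lt.b, Lt.c] [Lt.a, Lt.b, Lt.ai, Lt.ai] (pat hy (rf_2 hy) 9 rfl) h
      · rcases brec_true h with h | h
        · exact mRel_good (T := T) hM0 [Lt.b, Lt.ai, Lt.ai, Lt.c, Lt.ai, Lt.ai, Lt.b, Lt.ci, Lt.b, Lt.a, Lt.a, Lt.ci] [Lt.a, Lt.b, Lt.a] (pat hy (rb_3 hy) 3 rfl) h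
        · exact mRel_good (T := T) hM0 [Lt.a, Lt.a, Lt.a, Lt.a, Lt.b, Lt.a, Lt.b, Lt.ai, Lt.ci, Lt.b, Lt.ci, Lt.b] [Lt.b, Lt.ai, Lt.ci] (pat hy (rf_4 hy) 7 rfl) h
    · rcases brec_true h with h | h
      · exact mRel_good (T := T) hM0 [Lt.ai, Lt.b, Lt.ai, Lt.b, Lt.a, Lt.b, Lt.ci, Lt.b, Lt.c, Lt.b, Lt.c, Lt.a] [Lt.b, Lt.ai] (pat hy (rf_2 hy) 8 rfl) h
      · rcases brec_true h with h | h
        · exact mRel_good (T := T) hM0 [Lt.b, Lt.ai, Lt.ai, Lt.c, Lt.ai] [Lt.a, Lt.b, Lt.a, Lt.c, Lt.ai, Lt.ai, Lt.b, Lt.c, Lt.b, Lt.a] (pat hy (rb_3 hy) 3 rfl) h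
        · exact mRel_good (T := T) hM0 [Lt.ai, Lt.b, Lt.a, Lt.b, Lt.ci, Lt.b, Lt.c] [Lt.b, Lt.a, Lt.b, Lt.ai, Lt.ai, Lt.ci, Lt.b] (pat hy (rf_2 hy) 10 rfl) h
theorem dM_33_s (hy : Hy g H) (j z1 z2 u : ℕ) (h : dM_33 j z1 z2 u = true) : GdM g H u := by
  unfold dM_33 at h
  rcases brec_true h with h | h
  · rcases brec_true h with h | h
    · exact mRel_good (T := T) hM0 [Lt.a, Lt.a, Lt.b, Lt.a, Lt.a, Lt.a] [Lt.ai, Lt.b, Lt.ai, Lt.ai, Lt.ai, Lt.b] (pat hy (rf_1 hy) 1 rfl) h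
    · rcases brec_true h with h | h
      · exact mRel_good (T := T) hM0 [Lt.a, Lt.b, Lt.ai, Lt.b, Lt.ai, Lt.b, Lt.a, Lt.b, Lt.ci, Lt.b] [Lt.ai, Lt.ci, Lt.b, Lt.ci] (pat hy (rf_2 hy) 6 rfl) h
      · exact mRel_good (T := T) hM0 [Lt.b, Lt.a, Lt.b, Lt.a, Lt.b, Lt.ai, Lt.ai, Lt.ci, Lt.b] [Lt.a, Lt.b, Lt.ci, Lt.b, Lt.c] (pat hy (rb_2 hy) 2 rfl) h
  · rcases brec_true h with h | h
    · exact mRel_good (T := T) hM0 [Lt.a, Lt.b, Lt.ai, Lt.ai, Lt.ci, Lt.b, Lt.ci] [Lt.b, Lt.ai, Lt.b, Lt.a, Lt.b, Lt.ci, Lt.b] (pat hy (rb_2 hy) 5 rfl) h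
    · rcases brec_true h with h | h
      · exact mRel_good (T := T) hM0 [Lt.a, Lt.a, Lt.b, Lt.a, Lt.a, Lt.a, Lt.b, Lt.a, Lt.a, Lt.a] [Lt.ai, Lt.b] (pat hy (rf_1 hy) 1 rfl) h
      · exact mRel_good (T := T) hM0 [Lt.a, Lt.b, Lt.a, Lt.c, Lt.ai, Lt.ai, Lt.b, Lt.c, Lt.b] [Lt.b, Lt.ai, Lt.ai, Lt.c, Lt.ai, Lt.ai] (pat hy (rf_3 hy) 12 rfl) h
theorem dM_34_s (hy : Hy g H) (j z1 z2 u : ℕ) (h : dM_34 j z1 z2 u = true) : GdM g H u := by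
  unfold dM_34 at h
  rcases brec_true h with h | h
  · rcases brec_true h with h | h
    · exact mRel_good (T := T) hM0 [Lt.ai, Lt.ai, Lt.ai] [Lt.b, Lt.a, Lt.a, Lt.a, Lt.b, Lt.a, Lt.a, Lt.a, Lt.b] (pat hy (rb_1 hy) 1 rfl) h
    · rcases brec_true h with h | h
      · exact mRel_good (T := T) hM0 [Lt.c, Lt.b, Lt.a, Lt.a] [Lt.b, Lt.a, Lt.a, Lt.ci, Lt.ai, Lt.b, Lt.ai, Lt.b, Lt.ai, Lt.ai, Lt.c] (pat hy (rf_3 hy) 4 rfl) h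
      · exact mRel_good (T := T) hM0 [Lt.b, Lt.ai, Lt.ai, Lt.c, Lt.ai, Lt.ai] [Lt.a, Lt.b, Lt.a, Lt.c, Lt.ai, Lt.ai, Lt.b, Lt.c, Lt.b] (pat hy (rb_3 hy) 3 rfl) h
  · rcases brec_true h with h | h
    · rcases brec_true h with h | h
      · exact mRel_good (T := T) hM0 [Lt.b, Lt.ai, Lt.ci, Lt.b, Lt.c, Lt.b, Lt.c, Lt.a, Lt.b, Lt.ai] [Lt.a, Lt.a, Lt.a, Lt.a, Lt.b] (pat hy (rb_4 hy) 8 rfl) h
      · exact mRel_good (T := T) hM0 [Lt.b, Lt.ai, Lt.b, Lt.ci, Lt.ci] [Lt.ai, Lt.b, Lt.ai, Lt.ai, Lt.b, Lt.a, Lt.b, Lt.ci, Lt.ci, Lt.b] (pat hy (rf_5 hy) 12 rfl) h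
    · rcases brec_true h with h | h
      · exact mRel_good (T := T) hM0 [Lt.ci, Lt.b, Lt.c] [Lt.b, Lt.ai, Lt.b, Lt.a, Lt.b, Lt.a, Lt.b, Lt.ai, Lt.ai, Lt.ci, Lt.b] (pat hy (rf_2 hy) 0 rfl) h
      · exact mRel_good (T := T) hM0 [Lt.a, Lt.b, Lt.ai, Lt.ci, Lt.b, Lt.ci, Lt.b] [Lt.b, Lt.ai, Lt.ai, Lt.ai, Lt.ai, Lt.b, Lt.ai, Lt.ci] (pat hy (rf_4 hy) 12 rfl) h
theorem dM_35_s (hy : Hy g H) (j z1 z2 u : ℕ) (h : dM_35 j z1 z2 u = true) : GdM g H u := by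
  unfold dM_35 at h
  rcases brec_true h with h | h
  · exact dM_33_s hy j z1 z2 u h
  · exact dM_34_s hy j z1 z2 u h
theorem dM_36_s (hy : Hy g H) (j z1 z2 u : ℕ) (h : dM_36 j z1 z2 u = true) : GdM g H u := by
  unfold dM_36 at h
  rcases brec_true h with h | h
  · exact dM_32_s hy j z1 z2 u h
  · exact dM_35_s hy j z1 z2 u h
theorem dM_37_s (hy : Hy g H) (j z1 z2 u : ℕ) (h : dM_37 j z1 z2 u = true) : GdM g H u := by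
  unfold dM_37 at h
  rcases brec_true h with h | h
  · rcases brec_true h with h | h
    · exact mRel_good (T := T) hM0 [Lt.ai, Lt.b, Lt.ai, Lt.ai, Lt.ai] [Lt.a, Lt.a, Lt.b, Lt.a, Lt.a, Lt.a, Lt.b] (pat hy (rb_1 hy) 3 rfl) h
    · rcases brec_true h with h | h
      · exact mRel_good (T := T) hM0 [Lt.b, Lt.ci, Lt.b, Lt.c] [Lt.ai, Lt.b, Lt.a, Lt.b, Lt.a, Lt.b, Lt.ai, Lt.ai, Lt.ci, Lt.b] (pat hy (rf_2 hy) 13 rfl) h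
      · exact mRel_good (T := T) hM0 [Lt.b, Lt.ci, Lt.b, Lt.c, Lt.b, Lt.c, Lt.a, Lt.a, Lt.b, Lt.ai] [Lt.ai, Lt.b, Lt.a, Lt.b] (pat hy (rf_2 hy) 13 rfl) h
  · rcases brec_true h with h | h
    · exact mRel_good (T := T) hM0 [Lt.b, Lt.ai, Lt.b, Lt.ai, Lt.b, Lt.a, Lt.b, Lt.ci] [Lt.ai, Lt.ai, Lt.ci, Lt.b, Lt.ci, Lt.b] (pat hy (rf_2 hy) 7 rfl) h
    · rcases brec_true h with h | h
      · exact mRel_good (T := T) hM0 [Lt.b, Lt.ai, Lt.b, Lt.ci, Lt.ci, Lt.b, Lt.c, Lt.c, Lt.b, Lt.ai, Lt.b, Lt.a] [Lt.ai, Lt.b, Lt.ai] (pat hy (rf_5 hy) 12 rfl) h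
      · exact mRel_good (T := T) hM0 [Lt.b, Lt.ci, Lt.b, Lt.a, Lt.a] [Lt.a, Lt.a, Lt.ci, Lt.a, Lt.a, Lt.b, Lt.a, Lt.b, Lt.a, Lt.c] (pat hy (rb_3 hy) 9 rfl) h
theorem dM_38_s (hy : Hy g H) (j z1 z2 u : ℕ) (h : dM_38 j z1 z2 u = true) : GdM g H u := by
  unfold dM_38 at h
  rcases brec_true h with h | h
  · rcases brec_true h with h | h
    · exact mRel_good (T := T) hM0 [Lt.b, Lt.a, Lt.a, Lt.ci, Lt.ai, Lt.b, Lt.ai, Lt.b, Lt.ai, Lt.ai, Lt.c, Lt.ai] [Lt.c, Lt.b, Lt.a] (pat hy (rb_3 hy) 11 rfl) h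
    · rcases brec_true h with h | h
      · exact mRel_good (T := T) hM0 [Lt.b, Lt.ai, Lt.b, Lt.ci, Lt.b] [Lt.ai, Lt.ai, Lt.b, Lt.a, Lt.b, Lt.a, Lt.b, Lt.ai, Lt.ai, Lt.b, Lt.ci, Lt.b, Lt.ci] (pat hy (rf_7 hy) 15 rfl) h
      · exact mRel_good (T := T) hM0 [Lt.b, Lt.ai, Lt.ai, Lt.b, Lt.a, Lt.b, Lt.ci, Lt.ci, Lt.b, Lt.c, Lt.c, Lt.b, Lt.a, Lt.b] [Lt.a] (pat hy (rb_5 hy) 4 rfl) h
  · rcases brec_true h with h | h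
    · rcases brec_true h with h | h
      · exact mRel_good (T := T) hM0 [Lt.b, Lt.a, Lt.a, Lt.a, Lt.a, Lt.b, Lt.a, Lt.b, Lt.ai, Lt.ci, Lt.b, Lt.ci] [Lt.ai, Lt.ci, Lt.b] (pat hy (rf_4 hy) 6 rfl) h
      · exact mRel_good (T := T) hM0 [Lt.b, Lt.ai, Lt.b, Lt.ai, Lt.ai, Lt.c, Lt.ai, Lt.ai, Lt.b, Lt.ci, Lt.b, Lt.a, Lt.a, Lt.ci, Lt.ai] [] (pat hy (rb_3 hy) 1 rfl) h
    · rcases brec_true h with h | h
      · exact mRel_good (T := T) hM0 [Lt.a, Lt.a, Lt.b, Lt.a] [Lt.c, Lt.ai, Lt.ai, Lt.b, Lt.ci, Lt.b, Lt.a, Lt.a, Lt.ci, Lt.ai, Lt.b] (pat hy (rf_3 hy) 9 rfl) h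
      · exact mRel_good (T := T) hM0 [Lt.ai, Lt.b, Lt.ai, Lt.b, Lt.ai, Lt.ai, Lt.c, Lt.ai, Lt.ai] [Lt.c, Lt.ai, Lt.ai, Lt.b, Lt.c, Lt.b] (pat hy (rb_3 hy) 0 rfl) h
theorem dM_39_s (hy : Hy g H) (j z1 z2 u : ℕ) (h : dM_39 j z1 z2 u = true) : GdM g H u := by
  unfold dM_39 at h
  rcases brec_true h with h | h
  · exact dM_37_s hy j z1 z2 u h
  · exact dM_38_s hy j z1 z2 u h
theorem dM_40_s (hy : Hy g H) (j z1 z2 u : ℕ) (h : dM_40 j z1 z2 u = true) : GdM g H u := by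
  unfold dM_40 at h
  rcases brec_true h with h | h
  · rcases brec_true h with h | h
    · exact mRel_good (T := T) hM0 [Lt.b, Lt.ai, Lt.ci, Lt.b, Lt.c, Lt.b, Lt.c, Lt.a, Lt.b] [Lt.a, Lt.a, Lt.a, Lt.a, Lt.b, Lt.a] (pat hy (rb_4 hy) 8 rfl) h
    · rcases brec_true h with h | h
      · exact mRel_good (T := T) hM0 [Lt.ai, Lt.ai, Lt.ai, Lt.b, Lt.ai, Lt.ai, Lt.ai, Lt.b, Lt.ai] [Lt.b, Lt.a, Lt.a] (pat hy (rb_1 hy) 1 rfl) h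
      · exact mRel_good (T := T) hM0 [Lt.b, Lt.a, Lt.b, Lt.ci] [Lt.a, Lt.a, Lt.b, Lt.a, Lt.b, Lt.ai, Lt.b, Lt.ci, Lt.ci, Lt.b, Lt.c] (pat hy (rb_5 hy) 7 rfl) h
  · rcases brec_true h with h | h
    · exact mRel_good (T := T) hM0 [Lt.b] [Lt.c, Lt.a, Lt.a, Lt.b, Lt.ai, Lt.b, Lt.ai, Lt.b, Lt.a, Lt.b, Lt.ci, Lt.b, Lt.c] (pat hy (rb_2 hy) 10 rfl) h
    · rcases brec_true h with h | h
      · exact mRel_good (T := T) hM0 [Lt.b, Lt.ai, Lt.b, Lt.a, Lt.b, Lt.a, Lt.b, Lt.ai, Lt.ai] [Lt.ci, Lt.b, Lt.c, Lt.b, Lt.c] (pat hy (rb_2 hy) 0 rfl) h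
      · exact mRel_good (T := T) hM0 [Lt.ai, Lt.c, Lt.ai, Lt.ai, Lt.b, Lt.ci, Lt.b, Lt.a] [Lt.a, Lt.b, Lt.a, Lt.b, Lt.a, Lt.c, Lt.ai] (pat hy (rb_3 hy) 5 rfl) h
theorem dM_41_s (hy : Hy g H) (j z1 z2 u : ℕ) (h : dM_41 j z1 z2 u = true) : GdM g H u := by
  unfold dM_41 at h
  rcases brec_true h with h | h
  · rcases brec_true h with h | h
    · exact mRel_good (T := T) hM0 [Lt.b, Lt.c, Lt.b, Lt.c, Lt.a] [Lt.c, Lt.b, Lt.ai, Lt.b, Lt.a, Lt.b, Lt.a, Lt.b, Lt.ai] (pat hy (rf_2 hy) 1 rfl) h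
    · rcases brec_true h with h | h
      · exact mRel_good (T := T) hM0 [Lt.ai, Lt.ci, Lt.b, Lt.ci, Lt.b, Lt.c, Lt.b, Lt.ai] [Lt.a, Lt.b, Lt.ai, Lt.b, Lt.ai, Lt.b] (pat hy (rb_2 hy) 8 rfl) h
      · exact mRel_good (T := T) hM0 [Lt.ci, Lt.b] [Lt.b, Lt.ai, Lt.b, Lt.a, Lt.b, Lt.a, Lt.b, Lt.ai, Lt.ai, Lt.ci, Lt.b, Lt.ci] (pat hy (rf_2 hy) 0 rfl) h
  · rcases brec_true h with h | h
    · rcases brec_true h with h | h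
      · exact mRel_good (T := T) hM0 [Lt.ai, Lt.ai, Lt.b, Lt.ai, Lt.ai, Lt.ai, Lt.b] [Lt.a, Lt.b, Lt.a, Lt.a, Lt.a] (pat hy (rb_1 hy) 2 rfl) h
      · exact mRel_good (T := T) hM0 [Lt.a, Lt.b, Lt.a, Lt.a, Lt.a, Lt.b] [Lt.ai, Lt.ai, Lt.b, Lt.ai, Lt.ai, Lt.ai] (pat hy (rf_1 hy) 2 rfl) h
    · rcases brec_true h with h | h
      · exact mRel_good (T := T) hM0 [Lt.b, Lt.a, Lt.b, Lt.ai, Lt.ci, Lt.b, Lt.ci, Lt.b] [Lt.ai, Lt.ai, Lt.ai, Lt.ai, Lt.b, Lt.ai, Lt.ci] (pat hy (rf_4 hy) 11 rfl) h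
      · exact mRel_good (T := T) hM0 [Lt.b, Lt.a, Lt.a, Lt.a, Lt.b, Lt.a, Lt.a, Lt.a, Lt.b, Lt.a, Lt.a, Lt.a] [] (pat hy (rf_1 hy) 3 rfl) h
theorem dM_42_s (hy : Hy g H) (j z1 z2 u : ℕ) (h : dM_42 j z1 z2 u = true) : GdM g H u := by
  unfold dM_42 at h
  rcases brec_true h with h | h
  · exact dM_40_s hy j z1 z2 u h
  · exact dM_41_s hy j z1 z2 u h
theorem dM_43_s (hy : Hy g H) (j z1 z2 u : ℕ) (h : dM_43 j z1 z2 u = true) : GdM g H u := by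
  unfold dM_43 at h
  rcases brec_true h with h | h
  · exact dM_39_s hy j z1 z2 u h
  · exact dM_42_s hy j z1 z2 u h
theorem dM_44_s (hy : Hy g H) (j z1 z2 u : ℕ) (h : dM_44 j z1 z2 u = true) : GdM g H u := by
  unfold dM_44 at h
  rcases brec_true h with h | h
  · exact dM_36_s hy j z1 z2 u h
  · exact dM_43_s hy j z1 z2 u h
theorem dM_45_s (hy : Hy g H) (j z1 z2 u : ℕ) (h : dM_45 j z1 z2 u = true) : GdM g H u := by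
  unfold dM_45 at h
  rcases brec_true h with h | h
  · exact dM_31_s hy j z1 z2 u h
  · exact dM_44_s hy j z1 z2 u h
theorem dM_46_s (hy : Hy g H) (j z1 z2 u : ℕ) (h : dM_46 j z1 z2 u = true) : GdM g H u := by
  unfold dM_46 at h
  rcases brec_true h with h | h
  · exact dM_20_s hy j z1 z2 u h
  · exact dM_45_s hy j z1 z2 u h
theorem dM_47_s (hy : Hy g H) (j z1 z2 u : ℕ) (h : dM_47 j z1 z2 u = true) : GdM g H u := by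
  unfold dM_47 at h
  rcases brec_true h with h | h
  · exact dM_1_s hy j z1 z2 u h
  · exact dM_46_s hy j z1 z2 u h
theorem dM_48_s (hy : Hy g H) (j z1 z2 u : ℕ) (h : dM_48 j z1 z2 u = true) : GdM g H u := by
  unfold dM_48 at h
  rcases brec_true h with h | h
  · exact dM_0_s hy j z1 z2 u h
  · exact dM_47_s hy j z1 z2 u h
theorem sndM (hy : Hy g H) (u : ℕ) (h : chkM u = true) :
    MG u < A → MG u % M < u ∧ GdM g H u := by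
  intro hA
  unfold chkM at h
  cases hb : Nat.ble A (MG u) with
  | true => exact absurd (le_of_ble hb) (by omega)
  | false =>
    rw [hb] at h
    obtain ⟨h1, h2⟩ := band_eq_true.1 h
    exact ⟨le_of_ble h1, dM_48_s hy _ _ _ _ h2⟩
theorem sndN (hy : Hy g H)
    (u : ℕ) (hu : u < M) (h : chkP u = true) : (∀ x, (T x u < A ∧ Gd g H x u) ∨ (A ≤ T x u ∧ MG u < A)) ∧ (MG u < A → MG u % M < u ∧ GdM g H u) := by
  unfold chkP at h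
  cases hb : Nat.ble M u with
  | true => exact absurd (le_of_ble hb) (by omega)
  | false =>
    rw [hb] at h
    change chkN u = true at h
    unfold chkN at h
    obtain ⟨h0, h⟩ := band_eq_true.1 h
    obtain ⟨h1, h⟩ := band_eq_true.1 h
    obtain ⟨h2, h⟩ := band_eq_true.1 h
    obtain ⟨h3, h⟩ := band_eq_true.1 h
    obtain ⟨h4, h⟩ := band_eq_true.1 h
    refine ⟨?_, sndM hy u h⟩
    intro x
    cases x
    · exact snc_a hy _ u hu h0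
    · exact snc_ai hy _ u hu h1
    · exact snc_b hy _ u hu h2
    · exact snc_c hy _ u hu h3
    · exact snc_ci hy _ u hu h4
theorem final (hinv : ∀ x, g (inv x) = (g x)⁻¹) (hr : ∀ r ∈ rels, (r.map g).prod = 1) (hH : ∀ r ∈ subs, (r.map g).prod ∈ H)
    (hall : ∀ u, u < M → chkP u = true) (hc : cntB liveP 11 0 = 240) :
    H.relIndex (Subgroup.closure (Set.range g)) ≤ 240 ∧ H.relIndex (Subgroup.closure (Set.range g)) ≠ 0 := by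
  have hn := fun u hu => sndN ⟨hinv, hr, hH⟩ u hu (hall u hu)
  have h1 : ∀ x u, u < M → T x u < A → Good (fa g) T MG M (cP g H) x u := by
    intro x u hu hx
    rcases (hn u hu).1 x with h | h
    · exact h.2
    · exact absurd h.1 (by omega)
  have h2 : ∀ u, u < M → MG u < A → GoodM (fa g) T MG M (cP g H) u := fun u hu h => ((hn u hu).2 h).2
  refine relIndex_le (M := M) (A := A) (T := T) (MG := MG) (c := cP g H) (by decide) cc_zero (sound_of_good h1 h2) ?_ ?_ ?_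
  · intro u hu h
    exact ((hn u hu).2 h).1
  · intro x u hu h
    rcases (hn u hu).1 x with h' | h'
    · exact h'.1
    · exact absurd h'.2 (by omega)
  · rw [← hc, ← cntB_spec]
    apply Finset.card_le_card
    intro u
    simp only [Finset.mem_filter, Finset.mem_Ico]
    rintro ⟨⟨_, h3⟩, h4⟩
    refine ⟨⟨Nat.zero_le _, lt_of_lt_of_le h3 (by decide)⟩, ?_⟩
    unfold liveP
    cases hb : Nat.ble M u with
    | true => exact absurd (le_of_ble hb) (by omega)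
    | false => exact h4
end
end H35.TCMHeE
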